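import Mathlib

set_option autoImplicit false

namespace CF.PrS
open Finset

variable {α : Type*} [DecidableEq α]

/-- expectation over a random subset of `V` with density `t` -/
noncomputable def Ex (t : ℝ) (V : Finset α) (f : Finset α → ℝ) : ℝ :=
  ∑ S ∈ V.powerset, t ^ S.card * (1 - t) ^ (V.card - S.card) * f S

theorem Ex_empty (t : ℝ) (f : Finset α → ℝ) : Ex t ∅ f = f ∅ := by simp [Ex]

theorem Ex_insert (t : ℝ) {V : Finset α} {a : α} (ha : a ∉ V) (f : Finset α → ℝ) :
    Ex t (insert a V) f = (1 - t) * Ex t V f + t * Ex t V (fun S => f (insert a S)) := by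
  unfold Ex
  rw [sum_powerset_insert ha, mul_sum, mul_sum, card_insert_of_notMem ha]
  congr 1
  · refine sum_congr rfl fun S hS => ?_
    have := card_le_card (mem_powerset.1 hS)
    rw [show V.card + 1 - S.card = (V.card - S.card) + 1 by omega, pow_succ]; ring
  · refine sum_congr rfl fun S hS => ?_
    have h : a ∉ S := fun h => ha (mem_powerset.1 hS h)
    rw [card_insert_of_notMem h, show V.card + 1 - (S.card + 1) = V.card - S.card by omega,
      pow_succ]; ring

theorem Ex_mono {t : ℝ} (h0 : 0 ≤ t) (h1 : t ≤ 1) {V : Finset α} {f g : Finset α → ℝ}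
    (h : ∀ S ⊆ V, f S ≤ g S) : Ex t V f ≤ Ex t V g :=
  sum_le_sum fun S hS => mul_le_mul_of_nonneg_left (h S (mem_powerset.1 hS))
    (mul_nonneg (pow_nonneg h0 _) (pow_nonneg (by linarith) _))

theorem Ex_congr {t : ℝ} {V : Finset α} {f g : Finset α → ℝ}
    (h : ∀ S ⊆ V, f S = g S) : Ex t V f = Ex t V g :=
  sum_congr rfl fun S hS => by rw [h S (mem_powerset.1 hS)]

theorem Ex_const (t c : ℝ) (V : Finset α) : Ex t V (fun _ => c) = c := by
  induction V using Finset.induction_on with
  | empty => rw [Ex_empty]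
  | insert a V ha ih => rw [Ex_insert t ha, ih]; ring

theorem Ex_add (t : ℝ) (V : Finset α) (f g : Finset α → ℝ) :
    Ex t V (fun S => f S + g S) = Ex t V f + Ex t V g := by
  simp [Ex, mul_add, sum_add_distrib]

theorem Ex_sub (t : ℝ) (V : Finset α) (f g : Finset α → ℝ) :
    Ex t V (fun S => f S - g S) = Ex t V f - Ex t V g := by
  simp [Ex, mul_sub, sum_sub_distrib]

theorem Ex_mul (t c : ℝ) (V : Finset α) (f : Finset α → ℝ) :
    Ex t V (fun S => c * f S) = c * Ex t V f := by
  simp only [Ex, mul_sum]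
  exact sum_congr rfl fun S _ => by ring

theorem Ex_sum {ι : Type*} (t : ℝ) (V : Finset α) (I : Finset ι) (f : ι → Finset α → ℝ) :
    Ex t V (fun S => ∑ i ∈ I, f i S) = ∑ i ∈ I, Ex t V (f i) := by
  simp only [Ex, mul_sum]
  exact sum_comm

theorem Ex_nonneg {t : ℝ} (h0 : 0 ≤ t) (h1 : t ≤ 1) {V : Finset α} {f : Finset α → ℝ}
    (h : ∀ S ⊆ V, 0 ≤ f S) : 0 ≤ Ex t V f := by
  have := Ex_mono h0 h1 (V := V) (f := fun _ => 0) h
  rwa [Ex_const] at this

theorem Ex_zero (V : Finset α) (f : Finset α → ℝ) : Ex 0 V f = f ∅ := by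
  induction V using Finset.induction_on generalizing f with
  | empty => rw [Ex_empty]
  | insert a V ha ih => rw [Ex_insert 0 ha, ih]; ring

theorem Ex_one (V : Finset α) (f : Finset α → ℝ) : Ex 1 V f = f V := by
  induction V using Finset.induction_on generalizing f with
  | empty => rw [Ex_empty]
  | insert a V ha ih => rw [Ex_insert 1 ha, ih, ih]; ring

theorem Ex_anti {t t' : ℝ} (h0 : 0 ≤ t) (h : t ≤ t') (h1 : t' ≤ 1) (V : Finset α)
    {g : Finset α → ℝ} (hg : Antitone g) : Ex t' V g ≤ Ex t V g := by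
  induction V using Finset.induction_on generalizing g with
  | empty => rw [Ex_empty, Ex_empty]
  | insert a V ha ih =>
    rw [Ex_insert _ ha, Ex_insert _ ha]
    have e1 := ih hg
    have e2 := ih (g := fun S => g (insert a S)) fun S S' hS => hg (insert_subset_insert a hS)
    have e3 : Ex t V (fun S => g (insert a S)) ≤ Ex t V g :=
      Ex_mono h0 (h.trans h1) fun S _ => hg (subset_insert a S)
    nlinarith [mul_le_mul_of_nonneg_left e1 (sub_nonneg.2 h1),
      mul_le_mul_of_nonneg_left e2 (h0.trans h), mul_le_mul_of_nonneg_left e3 (sub_nonneg.2 h)]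

theorem Ex_step {t t' : ℝ} (h0 : 0 ≤ t) (h : t ≤ t') (h1 : t' ≤ 1) (V : Finset α)
    {f : Finset α → ℝ} (hf : ∀ v, Antitone fun S => f S - f (insert v S)) :
    Ex t V f - Ex t' V f ≤ (t' - t) * ∑ v ∈ V, Ex t (V.erase v) (fun S => f S - f (insert v S)) := by
  induction V using Finset.induction_on generalizing f with
  | empty => simp [Ex_empty]
  | insert a W ha ih =>
    have e1 := ih hf
    have e2 := ih (f := fun S => f (insert a S)) fun v S S' hS => by
      have := hf v (insert_subset_insert a hS)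
      simpa only [insert_comm a v] using this
    have e3 := Ex_anti h0 h h1 W (hf a)
    rw [sum_insert ha, erase_insert ha]
    have e4 : ∑ v ∈ W, Ex t ((insert a W).erase v) (fun S => f S - f (insert v S)) =
        (1 - t) * ∑ v ∈ W, Ex t (W.erase v) (fun S => f S - f (insert v S)) +
        t * ∑ v ∈ W, Ex t (W.erase v) (fun S => f (insert a S) - f (insert a (insert v S))) := by
      rw [mul_sum, mul_sum, ← sum_add_distrib]
      refine sum_congr rfl fun v hv => ?_
      have hva : a ≠ v := fun e => ha (e ▸ hv)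
      rw [erase_insert_of_ne hva, Ex_insert t (fun h => ha (mem_of_mem_erase h))]
      simp only [insert_comm a v]
    rw [e4, Ex_insert _ ha, Ex_insert _ ha]
    rw [Ex_sub, Ex_sub] at e3
    rw [Ex_sub]
    have ht1 : 0 ≤ 1 - t := by linarith
    nlinarith [mul_le_mul_of_nonneg_left e1 ht1, mul_le_mul_of_nonneg_left e2 h0,
      mul_le_mul_of_nonneg_left e3 (sub_nonneg.2 h)]

theorem Ex_log {t c : ℝ} (h0 : 0 ≤ t) (h1 : t ≤ 1) (V : Finset α) {o : Finset α → ℝ}
    (ho : ∀ S ⊆ V, 0 < o S) (hc : 0 < c) (h : Ex t V o ≤ c) :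
    Ex t V (fun S => Real.log (o S)) ≤ Real.log c := by
  have : Ex t V (fun S => Real.log (o S)) ≤ Ex t V (fun S => (Real.log c - 1) + c⁻¹ * o S) := by
    refine Ex_mono h0 h1 fun S hS => ?_
    have := Real.log_le_sub_one_of_pos (div_pos (ho S hS) hc)
    rw [Real.log_div (ho S hS).ne' hc.ne', div_eq_inv_mul] at this
    linarith
  rw [Ex_add, Ex_const, Ex_mul] at this
  have : c⁻¹ * Ex t V o ≤ 1 := by
    rw [inv_mul_le_iff₀ hc]; linarith
  linarith

/-- the telescoped entropy bound -/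
theorem entropy (V : Finset α) {f : Finset α → ℝ} (hf : ∀ v, Antitone fun S => f S - f (insert v S))
    {L : ℕ} (hL : 0 < L) (c : ℕ → ℝ)
    (hc : ∀ i < L, ∀ v ∈ V, Ex ((i : ℝ) / L) (V.erase v) (fun S => f S - f (insert v S)) ≤ c i) :
    L * (f ∅ - f V) ≤ V.card * ∑ i ∈ range L, c i := by
  have hL' : (0 : ℝ) < L := by exact_mod_cast hL
  have key : ∀ j ≤ L, L * (f ∅ - Ex ((j : ℝ) / L) V f) ≤ V.card * ∑ i ∈ range j, c i := by
    intro j
    induction j with
    | zero => intro _; simp [Ex_zero]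
    | succ j ih =>
      intro hj
      have e1 := ih (by omega)
      have hj' : ((j + 1 : ℕ) : ℝ) ≤ L := by exact_mod_cast hj
      have e2 := Ex_step (t := (j : ℝ) / L) (t' := ((j + 1 : ℕ) : ℝ) / L) (by positivity)
        (by gcongr; omega) (by rw [div_le_one hL']; exact hj') V hf
      have e3 : ∑ v ∈ V, Ex ((j : ℝ) / L) (V.erase v) (fun S => f S - f (insert v S)) ≤
          V.card * c j := by
        have := sum_le_card_nsmul V _ (c j) (hc j (by omega))
        simpa using this
      have e4 : (((j + 1 : ℕ) : ℝ) / L - (j : ℝ) / L) = 1 / L := by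
        push_cast; ring
      rw [e4, one_div, le_inv_mul_iff₀ hL'] at e2
      rw [sum_range_succ]
      nlinarith
  have := key L le_rfl
  rwa [div_self hL'.ne', Ex_one] at this

theorem Ex_avoid (t : ℝ) {V D : Finset α} (hD : D ⊆ V) (g : Finset α → ℝ) :
    Ex t V (fun S => if Disjoint S D then g S else 0) = (1 - t) ^ D.card * Ex t (V \ D) g := by
  induction D using Finset.induction_on generalizing V with
  | empty => simp
  | insert a D ha ih =>
    have haV : a ∈ V := hD (mem_insert_self a D)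
    have hV : V = insert a (V.erase a) := (insert_erase haV).symm
    have hD' : D ⊆ V.erase a := fun x hx =>
      mem_erase.2 ⟨fun e => ha (e ▸ hx), hD (mem_insert_of_mem hx)⟩
    rw [card_insert_of_notMem ha, pow_succ, show V \ insert a D = V.erase a \ D by
      ext x; simp; tauto, mul_right_comm, ← ih hD']
    conv_lhs => rw [hV]
    rw [Ex_insert t (notMem_erase a V)]
    have e1 : Ex t (V.erase a) (fun S => if Disjoint (insert a S) (insert a D) then
        g (insert a S) else 0) = 0 := by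
      refine (Ex_congr fun S _ => ?_).trans (Ex_const t 0 (V.erase a))
      rw [if_neg]
      rw [not_disjoint_iff]
      exact ⟨a, mem_insert_self _ _, mem_insert_self _ _⟩
    rw [e1, mul_zero, add_zero, mul_comm]
    congr 1
    refine Ex_congr fun S hS => ?_
    have : a ∉ S := fun h => notMem_erase a V (hS h)
    simp [disjoint_insert_right, this]

theorem pow_conv {c : ℝ} (hc : 0 ≤ c) {d D : ℕ} (hd : d ≤ D) (hD : 0 < D) :
    c ^ d ≤ (d / D : ℝ) * c ^ D + (1 - d / D) := by
  have hD' : (0 : ℝ) < D := by exact_mod_cast hD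
  have h1 : (d / D : ℝ) ≤ 1 := by rw [div_le_one hD']; exact_mod_cast hd
  have := Real.geom_mean_le_arith_mean2_weighted (w₁ := d / D) (w₂ := 1 - d / D) (p₁ := c ^ D)
    (p₂ := 1) (by positivity) (by linarith) (by positivity) zero_le_one (by ring)
  rw [Real.one_rpow, mul_one, mul_one, ← Real.rpow_natCast, ← Real.rpow_mul hc,
    mul_div_cancel₀ _ hD'.ne', Real.rpow_natCast, Real.rpow_natCast] at this
  exact this

section indep
variable (adj : α → α → Prop) [DecidableRel adj]

/-- ordered edges inside `U` -/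
def edg (U : Finset α) : ℕ := ((U ×ˢ U).filter fun p => adj p.1 p.2).card

open Classical in
/-- indicator of independence -/
noncomputable def ind (S : Finset α) : ℝ := if ∀ u ∈ S, ∀ v ∈ S, ¬ adj u v then 1 else 0

theorem edg_le (hs : ∀ u v, adj u v → adj v u) (U D : Finset α) {d : ℕ}
    (hd : ∀ u ∈ D, (U.filter (adj u)).card ≤ d) : edg adj U ≤ edg adj (U \ D) + 2 * (D.card * d) := by
  unfold edg
  have h1 : (D.biUnion fun u => (U.filter (adj u)).image fun v => (u, v)).card ≤ D.card * d :=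
    card_biUnion_le_card_mul _ _ _ fun u hu => card_image_le.trans (hd u hu)
  have h2 : (D.biUnion fun u => (U.filter (adj u)).image fun v => (v, u)).card ≤ D.card * d :=
    card_biUnion_le_card_mul _ _ _ fun u hu => card_image_le.trans (hd u hu)
  have h3 : ((U ×ˢ U).filter fun p => adj p.1 p.2) ⊆
      (((U \ D) ×ˢ (U \ D)).filter fun p => adj p.1 p.2) ∪
      ((D.biUnion fun u => (U.filter (adj u)).image fun v => (u, v)) ∪
      (D.biUnion fun u => (U.filter (adj u)).image fun v => (v, u))) := by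
    rintro ⟨u, v⟩ hp
    simp only [mem_filter, mem_product] at hp
    simp only [mem_union, mem_filter, mem_product, mem_sdiff, mem_biUnion, mem_image]
    by_cases hu : u ∈ D
    · exact Or.inr (Or.inl ⟨u, hu, v, ⟨hp.1.2, hp.2⟩, rfl⟩)
    by_cases hv : v ∈ D
    · exact Or.inr (Or.inr ⟨v, hv, u, ⟨hp.1.1, hs _ _ hp.2⟩, rfl⟩)
    exact Or.inl ⟨⟨⟨hp.1.1, hu⟩, hp.1.2, hv⟩, hp.2⟩
  have := (card_le_card h3).trans ((card_union_le _ _).trans
    (Nat.add_le_add_left (card_union_le _ _) _))
  omega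

theorem indep_aux (hs : ∀ u v, adj u v → adj v u) (hi : ∀ u, ¬ adj u u) {t x : ℝ} (h0 : 0 ≤ t)
    (h1 : t ≤ 1) (hx : 1 ≤ x) {Δ : ℕ}
    (hφ : ∀ d ≤ Δ, (1 - t) * x ^ (2 * d) + t * ((1 - t) ^ d * x ^ (2 * (d * Δ))) ≤ 1)
    (U : Finset α) (hd : ∀ u ∈ U, (U.filter (adj u)).card ≤ Δ) :
    Ex t U (ind adj) * x ^ edg adj U ≤ 1 := by
  induction U using Finset.strongInduction with
  | H U ih =>
    rcases U.eq_empty_or_nonempty with rfl | ⟨a, ha⟩
    · simp [Ex_empty, ind, edg]
    set N := U.filter (adj a) with hN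
    have hsub : ∀ W ⊆ U, ∀ u ∈ W, (W.filter (adj u)).card ≤ Δ := fun W hW u hu =>
      (card_le_card (filter_subset_filter _ hW)).trans (hd u (hW hu))
    have hNs : N ⊆ U.erase a := fun v hv =>
      mem_erase.2 ⟨fun e => hi a (by simpa [e] using (mem_filter.1 hv).2), (mem_filter.1 hv).1⟩
    have e1 := ih (U.erase a) (erase_ssubset ha) (hsub _ (erase_subset _ _))
    have e2 := ih (U.erase a \ N) (lt_of_le_of_lt sdiff_subset (erase_ssubset ha))
      (hsub _ (sdiff_subset.trans (erase_subset _ _)))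
    have c1 : edg adj U ≤ edg adj (U.erase a) + 2 * N.card := by
      have := edg_le adj hs U {a} (d := N.card) (by simp [hN])
      rwa [sdiff_singleton_eq_erase, card_singleton, one_mul] at this
    have c2 : edg adj U ≤ edg adj (U.erase a \ N) + 2 * (N.card * Δ) := by
      have h := edg_le adj hs U N (d := Δ) fun u hu => hd u (mem_filter.1 hu).1
      have h' := edg_le adj hs (U \ N) {a} (d := 0) (by
        intro u hu
        rw [mem_singleton.1 hu, Nat.le_zero, card_eq_zero, filter_eq_empty_iff]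
        intro v hv hav
        exact (mem_sdiff.1 hv).2 (mem_filter.2 ⟨(mem_sdiff.1 hv).1, hav⟩))
      rw [show (U \ N) \ {a} = U.erase a \ N by ext; simp; tauto] at h'
      omega
    have hz : ∀ W : Finset α, 0 ≤ Ex t W (ind adj) := fun W =>
      Ex_nonneg h0 h1 fun S _ => by unfold ind; split_ifs <;> norm_num
    have e3 : Ex t U (ind adj) ≤ (1 - t) * Ex t (U.erase a) (ind adj) +
        t * ((1 - t) ^ N.card * Ex t (U.erase a \ N) (ind adj)) := by
      conv_lhs => rw [← insert_erase ha]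
      rw [Ex_insert t (notMem_erase a U), ← Ex_avoid t hNs]
      gcongr
      refine Ex_mono h0 h1 fun S hS => ?_
      unfold ind
      split_ifs with h2 h3 h4 h3
      · rfl
      · exact absurd (fun u hu v hv => h2 u (mem_insert_of_mem hu) v (mem_insert_of_mem hv)) h4
      · rw [not_disjoint_iff] at h3
        obtain ⟨v, hv, hv'⟩ := h3
        exact absurd (mem_filter.1 hv').2 (h2 a (mem_insert_self _ _) v (mem_insert_of_mem hv))
      · positivity
      · rfl
      · rfl
    have hx0 : 0 ≤ x := by linarith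
    have p1 : Ex t (U.erase a) (ind adj) * x ^ edg adj U ≤ x ^ (2 * N.card) := by
      calc _ ≤ Ex t (U.erase a) (ind adj) * x ^ (edg adj (U.erase a) + 2 * N.card) :=
            mul_le_mul_of_nonneg_left (pow_le_pow_right₀ hx c1) (hz _)
        _ ≤ _ := by
          rw [pow_add, ← mul_assoc]
          exact mul_le_of_le_one_left (by positivity) e1
    have p2 : Ex t (U.erase a \ N) (ind adj) * x ^ edg adj U ≤ x ^ (2 * (N.card * Δ)) := by
      calc _ ≤ Ex t (U.erase a \ N) (ind adj) * x ^ (edg adj (U.erase a \ N) + 2 * (N.card * Δ)) :=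
            mul_le_mul_of_nonneg_left (pow_le_pow_right₀ hx c2) (hz _)
        _ ≤ _ := by
          rw [pow_add, ← mul_assoc]
          exact mul_le_of_le_one_left (by positivity) e2
    have h1' : 0 ≤ 1 - t := by linarith
    calc _ ≤ ((1 - t) * Ex t (U.erase a) (ind adj) +
          t * ((1 - t) ^ N.card * Ex t (U.erase a \ N) (ind adj))) * x ^ edg adj U :=
          mul_le_mul_of_nonneg_right e3 (by positivity)
      _ = (1 - t) * (Ex t (U.erase a) (ind adj) * x ^ edg adj U) +
          t * ((1 - t) ^ N.card * (Ex t (U.erase a \ N) (ind adj) * x ^ edg adj U)) := by ring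
      _ ≤ (1 - t) * x ^ (2 * N.card) + t * ((1 - t) ^ N.card * x ^ (2 * (N.card * Δ))) := by
          gcongr
      _ ≤ 1 := hφ _ (hd a ha)

/-- admissible decay rate -/
def Adm (t r : ℝ) (D : ℕ) : Prop :=
  0 < r ∧ r ≤ 1 ∧ (1 - t) / r ^ 2 + t * ((1 - t) / r ^ 2) ^ D ≤ 1

theorem Adm.mono {t r : ℝ} {D D' : ℕ} (h0 : 0 ≤ t) (h1 : t ≤ 1) (h : Adm t r D) (hD : D ≤ D') :
    Adm t r D' := by
  obtain ⟨a, b, c⟩ := h
  refine ⟨a, b, le_trans ?_ c⟩
  have hw : 0 ≤ (1 - t) / r ^ 2 := div_nonneg (by linarith) (by positivity)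
  have : (1 - t) / r ^ 2 ≤ 1 := by nlinarith [mul_nonneg h0 (pow_nonneg hw D)]
  have := mul_le_mul_of_nonneg_left (pow_le_pow_of_le_one hw this hD) h0
  linarith

theorem indep (hs : ∀ u v, adj u v → adj v u) (hi : ∀ u, ¬ adj u u) {t r : ℝ} (h0 : 0 ≤ t)
    (h1 : t ≤ 1) {Δ E : ℕ} (hΔ : 0 < Δ) (hr : Adm t r Δ)
    (U : Finset α) (hd : ∀ u ∈ U, (U.filter (adj u)).card ≤ Δ) (hE : E * Δ ≤ edg adj U) :
    Ex t U (ind adj) ≤ r ^ E := by
  obtain ⟨r0, r1, hr⟩ := hr
  set x : ℝ := (r⁻¹) ^ ((Δ : ℝ)⁻¹) with hx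
  have hxΔ : x ^ Δ = r⁻¹ := Real.rpow_inv_natCast_pow (by positivity) hΔ.ne'
  have hx1 : 1 ≤ x := Real.one_le_rpow (one_le_inv_iff₀.2 ⟨r0, r1⟩) (by positivity)
  have h1' : 0 ≤ 1 - t := by linarith
  have key := indep_aux adj hs hi h0 h1 hx1 (Δ := Δ) (fun d hd => by
    have a1 := pow_conv (c := x ^ 2) (by positivity) hd hΔ
    have a2 := pow_conv (c := (1 - t) / r ^ 2) (by positivity) hd hΔ
    have b1 : (x ^ 2) ^ Δ = 1 / r ^ 2 := by
      rw [← pow_mul, mul_comm, pow_mul, hxΔ]; simp
    have b2 : (1 - t) ^ d * x ^ (2 * (d * Δ)) = ((1 - t) / r ^ 2) ^ d := by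
      rw [show 2 * (d * Δ) = 2 * Δ * d by ring, pow_mul, pow_mul, b1, ← mul_pow]
      congr 1; ring
    rw [b2, pow_mul]
    rw [b1] at a1
    have hθ : (0 : ℝ) ≤ d / Δ := by positivity
    have a3 := mul_le_mul_of_nonneg_left a1 h1'
    have a4 := mul_le_mul_of_nonneg_left a2 h0
    have a5 := mul_le_mul_of_nonneg_left hr hθ
    have : (1 - t) * (d / Δ * (1 / r ^ 2)) = d / Δ * ((1 - t) / r ^ 2) := by ring
    nlinarith) U hd
  have hz : 0 ≤ Ex t U (ind adj) :=
    Ex_nonneg h0 h1 fun S _ => by unfold ind; split_ifs <;> norm_num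
  have : Ex t U (ind adj) * (r⁻¹) ^ E ≤ 1 := by
    refine le_trans (mul_le_mul_of_nonneg_left ?_ hz) key
    rw [← hxΔ, ← pow_mul, mul_comm]
    exact pow_le_pow_right₀ hx1 hE
  rwa [inv_pow, mul_inv_le_iff₀ (by positivity), one_mul] at this

end indep

end CF.PrS
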