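import Cfsg.Agent.PrS.A

set_option autoImplicit false

namespace CF.PrS
open Finset Equiv MulAction

variable {α : Type*} [Fintype α] [DecidableEq α] (G : Subgroup (Perm α))

/-- pointwise stabilizer -/
def St (S : Finset α) : Subgroup (Perm α) where
  carrier := {g | g ∈ G ∧ ∀ x ∈ S, g x = x}
  one_mem' := ⟨G.one_mem, fun _ _ => rfl⟩
  mul_mem' := fun {a b} ha hb => ⟨G.mul_mem ha.1 hb.1, fun x hx => by
    rw [Perm.mul_apply, hb.2 x hx, ha.2 x hx]⟩
  inv_mem' := fun {a} ha => ⟨G.inv_mem ha.1, fun x hx => by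
    rw [Perm.inv_eq_iff_eq, ha.2 x hx]⟩

/-- same orbit under the pointwise stabilizer -/
def R (S : Finset α) (x y : α) : Prop := ∃ g ∈ St G S, g x = y

open Classical in
/-- the orbit -/
noncomputable def orb (S : Finset α) (x : α) : Finset α := univ.filter (R G S x)

/-- order of the stabilizer -/
noncomputable def ord (S : Finset α) : ℕ := Nat.card (St G S)

variable {G}

theorem mem_St {S : Finset α} {g : Perm α} : g ∈ St G S ↔ g ∈ G ∧ ∀ x ∈ S, g x = x := Iff.rfl

theorem St_anti {S T : Finset α} (h : S ⊆ T) : St G T ≤ St G S :=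
  fun _ hg => ⟨hg.1, fun x hx => hg.2 x (h hx)⟩

theorem mem_orb {S : Finset α} {x y : α} : y ∈ orb G S x ↔ R G S x y := by simp [orb]

theorem R.refl (S : Finset α) (x : α) : R G S x x := ⟨1, one_mem _, rfl⟩

theorem R.symm {S : Finset α} {x y : α} (h : R G S x y) : R G S y x := by
  obtain ⟨g, hg, rfl⟩ := h
  exact ⟨g⁻¹, inv_mem hg, by simp⟩

theorem R.trans {S : Finset α} {x y z : α} (h : R G S x y) (h' : R G S y z) : R G S x z := by
  obtain ⟨g, hg, rfl⟩ := h
  obtain ⟨g', hg', rfl⟩ := h'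
  exact ⟨g' * g, mul_mem hg' hg, rfl⟩

theorem R.anti {S T : Finset α} {x y : α} (hS : S ⊆ T) (h : R G T x y) : R G S x y := by
  obtain ⟨g, hg, rfl⟩ := h
  exact ⟨g, St_anti hS hg, rfl⟩

theorem R.eq_of_mem {S : Finset α} {x y : α} (h : R G S x y) (hx : x ∈ S) : x = y := by
  obtain ⟨g, hg, rfl⟩ := h
  exact (hg.2 x hx).symm

theorem R.notMem {S : Finset α} {x y : α} (h : R G S x y) (hx : x ∉ S) : y ∉ S :=
  fun hy => hx ((h.symm.eq_of_mem hy) ▸ hy)

theorem orb_eq {S : Finset α} {x y : α} (h : R G S x y) : orb G S x = orb G S y := by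
  ext z; rw [mem_orb, mem_orb]; exact ⟨h.symm.trans, h.trans⟩

theorem orb_pos (S : Finset α) (x : α) : 0 < (orb G S x).card :=
  card_pos.2 ⟨x, mem_orb.2 (R.refl S x)⟩

theorem orb_sub {S : Finset α} {x : α} (hx : x ∉ S) : orb G S x ⊆ Sᶜ :=
  fun _ hy => mem_compl.2 ((mem_orb.1 hy).notMem hx)

theorem conj_mem {S T : Finset α} {g h : Perm α} (hg : g ∈ G) (hT : ∀ z ∈ T, ∃ z' ∈ S, g z' = z)
    (hh : h ∈ St G S) : g * h * g⁻¹ ∈ St G T := by
  refine ⟨mul_mem (mul_mem hg hh.1) (inv_mem hg), fun z hz => ?_⟩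
  obtain ⟨z', hz', rfl⟩ := hT z hz
  simp [hh.2 z' hz']

theorem R.map {S T : Finset α} {g : Perm α} (hg : g ∈ G) (hT : ∀ z ∈ T, ∃ z' ∈ S, g z' = z)
    {x y : α} (h : R G S x y) : R G T (g x) (g y) := by
  obtain ⟨h, hh, rfl⟩ := h
  exact ⟨_, conj_mem hg hT hh, by simp⟩

theorem ord_le {S T : Finset α} {g : Perm α} (hg : g ∈ G) (hT : ∀ z ∈ T, ∃ z' ∈ S, g z' = z) :
    ord G S ≤ ord G T :=
  Nat.card_le_card_of_injective (fun h : St G S => (⟨_, conj_mem hg hT h.2⟩ : St G T))
    fun a b e => by simpa using e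

theorem ord_pos (S : Finset α) : 0 < ord G S := Nat.card_pos

theorem ord_eq (S : Finset α) (x : α) : ord G S = (orb G S x).card * ord G (insert x S) := by
  have e1 : Nat.card (orbit (St G S) x) = (orb G S x).card := by
    rw [← Nat.card_eq_finsetCard]
    refine Nat.card_congr (Equiv.subtypeEquivRight fun y => ?_)
    rw [mem_orb]
    exact ⟨fun ⟨g, h⟩ => ⟨g, g.2, h⟩, fun ⟨g, hg, h⟩ => ⟨⟨g, hg⟩, h⟩⟩
  have e2 : (stabilizer (St G S) x).map (St G S).subtype = St G (insert x S) := by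
    ext g
    constructor
    · rintro ⟨g, hg, rfl⟩
      refine ⟨g.2.1, fun y hy => ?_⟩
      rcases mem_insert.1 hy with rfl | hy
      exacts [hg, g.2.2 y hy]
    · intro hg
      exact ⟨⟨g, St_anti (subset_insert _ _) hg⟩, hg.2 x (mem_insert_self _ _), rfl⟩
  unfold ord
  rw [← e2, Subgroup.card_map_of_injective (St G S).subtype_injective, ← e1, ← Nat.card_prod]
  exact (Nat.card_congr (orbitProdStabilizerEquivGroup (St G S) x)).symm

theorem ord_empty : ord G ∅ = Nat.card G := by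
  unfold ord
  rw [show St G ∅ = G from by ext g; simp [mem_St]]

theorem ord_eq_one {S : Finset α} (h : ∀ g ∈ St G S, ∀ x, g x = x) : ord G S = 1 := by
  unfold ord
  rw [Subgroup.card_eq_one, eq_bot_iff]
  exact fun g hg => Perm.ext (h g hg)

theorem St_eq_of_le {S T : Finset α} (h : St G S ≤ St G T) (h' : ord G T ≤ ord G S) :
    St G S = St G T := Subgroup.eq_of_le_of_card_ge h h'

theorem card_le_desc (F : Finset α) :
    Nat.card G ≤ (Fintype.card α).descFactorial F.card * ord G F := by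
  induction F using Finset.induction_on with
  | empty => simp [ord_empty]
  | insert a F ha ih =>
    rw [card_insert_of_notMem ha, Nat.descFactorial_succ, mul_right_comm, mul_comm]
    refine ih.trans (Nat.mul_le_mul_left _ ?_)
    rw [ord_eq F a, ← card_compl]
    exact Nat.mul_le_mul_right _ (card_le_card (orb_sub ha))

open Classical in
/-- the entropy bound for groups -/
theorem ent (F : Finset α) {L : ℕ} (hL : 0 < L) (π : ℕ → ℝ) (h0 : ∀ i < L, 0 ≤ π i) {u : ℝ}
    (hu : 0 ≤ u)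
    (h : ∀ i < L, ∀ x ∉ F, ∀ y ∉ F, x ≠ y → Ex ((i : ℝ) / L) (Fᶜ.erase x)
      (fun S => if R G (F ∪ S) x y then 1 else 0) ≤ π i)
    (hp : ∏ i ∈ range L, (1 + ((Fᶜ.card - 1 : ℕ) : ℝ) * π i) ≤ u ^ L) :
    (ord G F : ℝ) ≤ u ^ Fᶜ.card := by
  have hL' : (0 : ℝ) < L := by exact_mod_cast hL
  have hd : ∀ v S, Real.log (ord G (F ∪ S)) - Real.log (ord G (F ∪ insert v S)) =
      Real.log (orb G (F ∪ S) v).card := by
    intro v S
    rw [ord_eq (F ∪ S) v, union_insert, Nat.cast_mul, Real.log_mul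
      (by exact_mod_cast (orb_pos _ _).ne') (by exact_mod_cast (ord_pos _).ne')]
    ring
  have hc : ∀ i < L, 0 < 1 + ((Fᶜ.card - 1 : ℕ) : ℝ) * π i := fun i hi => by
    have := h0 i hi; positivity
  have key := entropy Fᶜ (f := fun S => Real.log (ord G (F ∪ S))) (fun v S T hS => by
      simp only [hd]
      refine Real.log_le_log (by exact_mod_cast orb_pos _ _) ?_
      exact_mod_cast card_le_card fun y hy =>
        mem_orb.2 ((mem_orb.1 hy).anti (union_subset_union_right hS))) hL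
    (fun i => Real.log (1 + ((Fᶜ.card - 1 : ℕ) : ℝ) * π i)) (fun i hi v hv => by
      simp only [hd]
      have t0 : (0 : ℝ) ≤ i / L := by positivity
      have t1 : (i : ℝ) / L ≤ 1 := by rw [div_le_one hL']; exact_mod_cast hi.le
      refine Ex_log t0 t1 _ (fun S _ => by exact_mod_cast orb_pos _ _) (hc i hi) ?_
      have e1 : Ex ((i : ℝ) / L) (Fᶜ.erase v) (fun S => ((orb G (F ∪ S) v).card : ℝ)) ≤
          Ex ((i : ℝ) / L) (Fᶜ.erase v) (fun S => 1 + ∑ y ∈ Fᶜ.erase v,
            if R G (F ∪ S) v y then 1 else 0) := by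
        refine Ex_mono t0 t1 fun S _ => ?_
        rw [sum_boole]
        have : orb G (F ∪ S) v ⊆ insert v ((Fᶜ.erase v).filter (R G (F ∪ S) v)) := by
          intro y hy
          rw [mem_orb] at hy
          by_cases e : y = v
          · exact e ▸ mem_insert_self _ _
          exact mem_insert_of_mem (mem_filter.2 ⟨mem_erase.2 ⟨e, mem_compl.2
            ((hy.anti subset_union_left).notMem (mem_compl.1 hv))⟩, hy⟩)
        have := (card_le_card this).trans (card_insert_le _ _)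
        rw [add_comm]
        exact_mod_cast this
      rw [Ex_add, Ex_const, Ex_sum] at e1
      refine e1.trans (add_le_add_right ?_ _)
      have := sum_le_card_nsmul (Fᶜ.erase v) _ (π i) fun y hy =>
        h i hi v (mem_compl.1 hv) y (mem_compl.1 (mem_erase.1 hy).2) (mem_erase.1 hy).1.symm
      rwa [card_erase_of_mem hv, nsmul_eq_mul] at this)
  have e1 : ord G (F ∪ Fᶜ) = 1 := ord_eq_one fun g hg x => hg.2 x (by simp)
  simp only [union_empty, e1, Nat.cast_one, Real.log_one, sub_zero] at key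
  rw [← Real.log_prod fun i hi => (hc i (mem_range.1 hi)).ne'] at key
  have hP : 0 < ∏ i ∈ range L, (1 + ((Fᶜ.card - 1 : ℕ) : ℝ) * π i) :=
    prod_pos fun i hi => hc i (mem_range.1 hi)
  have hu0 : 0 < u := by
    rcases hu.eq_or_lt with rfl | h
    · rw [zero_pow hL.ne'] at hp; linarith
    · exact h
  have e2 := Real.log_le_log hP hp
  rw [Real.log_pow] at e2
  rw [← Real.log_le_log_iff (by exact_mod_cast ord_pos F) (by positivity), Real.log_pow]
  have : (L : ℝ) * Real.log (ord G F) ≤ L * (Fᶜ.card * Real.log u) := by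
    nlinarith [mul_le_mul_of_nonneg_left e2 (Nat.cast_nonneg (α := ℝ) Fᶜ.card)]
  exact le_of_mul_le_mul_left this hL'

theorem eqv (hG : IsPreprimitive G α) (E : α → α → Prop)
    (i : ∀ g ∈ G, ∀ P Q, E P Q → E (g P) (g Q)) {A B : α} (r : E A A)
    (t : ∀ P Q R, E P Q → E P R → E Q R) (a : E A B) (n : B ≠ A) (C D : α) : E C D := by
  haveI : Nontrivial α := ⟨⟨B, A, n⟩⟩
  have s : ∀ P, E A P → E P A := fun P e => t _ _ _ e r
  let T : Subgroup G :=
    { carrier := {g | E A (g • A)}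
      one_mem' := by simpa using r
      mul_mem' := fun {x y} hx hy => t _ _ _ (s _ hx) (mul_smul x y A ▸ i x x.2 _ _ hy)
      inv_mem' := fun {x} hx => by
        have : E (x⁻¹ • x • A) (x⁻¹ • A) := i _ (x⁻¹).2 _ _ (s _ hx)
        simpa using this }
  have key : ∀ D, E A D := fun D => by
    obtain ⟨g, rfl⟩ := exists_smul_eq G A D
    obtain ⟨x, rfl⟩ := exists_smul_eq G A B
    exact ((IsPreprimitive.isCoatom_stabilizer_of_isPreprimitive G A).2 T (lt_of_le_of_ne
      (fun g hg => show E A (g • A) from (hg : g • A = A).symm ▸ r)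
      fun e => n (e.ge (a : x ∈ T)))).ge (Subgroup.mem_top g)
  exact t _ _ _ (key C) (key D)

end CF.PrS
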