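import Cfsg.Agent.PrS.B

set_option autoImplicit false

namespace CF.PrS
open Finset Equiv MulAction

variable {α : Type*} [Fintype α] [DecidableEq α] {G : Subgroup (Perm α)}

theorem orb_le {S T : Finset α} {g : Perm α} (hg : g ∈ G) (hT : ∀ z ∈ T, ∃ z' ∈ S, g z' = z)
    (x : α) : (orb G S x).card ≤ (orb G T (g x)).card :=
  card_le_card_of_injOn g (fun _ hy => mem_coe.2 (mem_orb.2 ((mem_orb.1 hy).map hg hT)))
    g.injective.injOn

theorem R_one {g : Perm α} (hg : g ∈ G) {z x y : α} (h : R G {z} x y) : R G {g z} (g x) (g y) :=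
  h.map hg (by simp)

theorem R_one' {g : Perm α} (hg : g ∈ G) {z x y : α} (h : R G {g z} (g x) (g y)) : R G {z} x y := by
  simpa using R_one (inv_mem hg) h

theorem o_map {g : Perm α} (hg : g ∈ G) (z x : α) :
    (orb G {g z} (g x)).card = (orb G {z} x).card := by
  refine le_antisymm ?_ (orb_le hg (by simp) x)
  simpa using orb_le (G := G) (S := {g z}) (T := {z}) (inv_mem hg) (by simp) (g x)

theorem tr1 (hG : IsPreprimitive G α) (x y : α) : ∃ g ∈ G, g x = y := by
  obtain ⟨g, hg⟩ := exists_smul_eq G x y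
  exact ⟨g, g.2, hg⟩

theorem o_symm (hG : IsPreprimitive G α) (z x : α) :
    (orb G {z} x).card = (orb G {x} z).card := by
  have e : ∀ z x : α, ord G {z} ≤ ord G {x} := fun z x => by
    obtain ⟨g, hg, rfl⟩ := tr1 hG z x
    exact ord_le hg (by simp)
  have e1 := ord_eq (G := G) {z} x
  have e2 := ord_eq (G := G) {x} z
  rw [pair_comm z x, le_antisymm (e x z) (e z x), e1] at e2
  exact Nat.eq_of_mul_eq_mul_right (ord_pos _) e2

theorem val_le (hG : IsPreprimitive G α) (r : α → α → Prop) [DecidableRel r]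
    (hr : ∀ g ∈ G, ∀ x y, r x y → r (g x) (g y)) (x y : α) :
    (univ.filter (r x)).card ≤ (univ.filter (r y)).card := by
  obtain ⟨g, hg, rfl⟩ := tr1 hG x y
  exact card_le_card_of_injOn g (fun z hz => by
    simp only [coe_filter, mem_univ, true_and, Set.mem_ofPred_eq] at hz ⊢
    exact hr g hg _ _ hz) g.injective.injOn

open Classical in
variable (G) in
/-- the points distinguishing `x` and `y` -/
noncomputable def Dd (x y : α) : Finset α := univ.filter fun z => ¬ R G {z} x y

theorem mem_Dd {x y z : α} : z ∈ Dd G x y ↔ ¬ R G {z} x y := by simp [Dd]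

theorem Dd_symm (x y : α) : Dd G x y = Dd G y x := by
  ext z; rw [mem_Dd, mem_Dd]; exact not_congr ⟨R.symm, R.symm⟩

theorem Dd_tri (x y z : α) : (Dd G x z).card ≤ (Dd G x y).card + (Dd G y z).card := by
  refine le_trans (card_le_card fun w hw => ?_) (card_union_le _ _)
  simp only [mem_union, mem_Dd] at hw ⊢
  by_contra h
  push Not at h
  exact hw (h.1.trans h.2)

theorem Dd_self (x : α) : Dd G x x = ∅ := by
  ext z; simp [mem_Dd, R.refl]

theorem Dd_map {g : Perm α} (hg : g ∈ G) (x y : α) :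
    (Dd G (g x) (g y)).card ≤ (Dd G x y).card :=
  card_le_card_of_injOn (g⁻¹ : Perm α) (fun z hz => mem_coe.2 (mem_Dd.2 fun h =>
    mem_Dd.1 hz (by simpa using R_one hg h))) (g⁻¹).injective.injOn

/-- walks of bounded length -/
def Wk (adj : α → α → Prop) (z : α) : ℕ → α → Prop
  | 0, w => w = z
  | i + 1, w => Wk adj z i w ∨ ∃ w', Wk adj z i w' ∧ adj w' w

section walk
variable {adj : α → α → Prop}

theorem Wk_map (hr : ∀ g ∈ G, ∀ x y, adj x y → adj (g x) (g y)) {g : Perm α} (hg : g ∈ G)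
    {z : α} : ∀ {i : ℕ} {w : α}, Wk adj z i w → Wk adj (g z) i (g w)
  | 0, _, h => congrArg g h
  | _ + 1, _, Or.inl h => Or.inl (Wk_map hr hg h)
  | _ + 1, _, Or.inr ⟨w', h, h'⟩ => Or.inr ⟨g w', Wk_map hr hg h, hr g hg _ _ h'⟩

theorem Wk_conn (hG : IsPreprimitive G α) (hr : ∀ g ∈ G, ∀ x y, adj x y → adj (g x) (g y))
    (hs : ∀ x y, adj x y → adj y x) {a b : α} (hab : adj a b) (hne : b ≠ a) (z w : α) :
    ∃ i, Wk adj z i w := by
  have key : Relation.ReflTransGen adj z w := by
    refine eqv hG _ (fun g hg P Q h => Relation.ReflTransGen.lift g (hr g hg) _ _ h)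
      Relation.ReflTransGen.refl (fun P Q R h h' => ?_) (Relation.ReflTransGen.single hab) hne z w
    haveI : Std.Symm adj := ⟨hs⟩
    exact (Relation.ReflTransGen.stdSymm.symm _ _ h).trans h'
  induction key with
  | refl => exact ⟨0, rfl⟩
  | tail _ h ih => obtain ⟨i, hi⟩ := ih; exact ⟨i + 1, Or.inr ⟨_, hi, h⟩⟩

theorem Wk_Dd {δ : ℕ} (hδ : ∀ x y, adj x y → (Dd G x y).card ≤ δ) {z : α} :
    ∀ {i : ℕ} {w : α}, Wk adj z i w → (Dd G z w).card ≤ i * δ
  | 0, _, h => by rw [show _ = z from h, Dd_self]; simp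
  | i + 1, _, Or.inl h => (Wk_Dd hδ h).trans (Nat.mul_le_mul_right _ (Nat.le_succ i))
  | i + 1, w, Or.inr ⟨w', h, h'⟩ => by
    have := Wk_Dd hδ h
    have := hδ _ _ h'
    have := Dd_tri (G := G) z w' w
    rw [Nat.succ_mul]; omega

theorem val_mul (hG : IsPreprimitive G α) [DecidableRel adj]
    (hr : ∀ g ∈ G, ∀ x y, adj x y → adj (g x) (g y))
    (hc : ∀ z w, ∃ i, Wk adj z i w) {δ : ℕ} (hδ : ∀ x y, adj x y → (Dd G x y).card ≤ δ) (a : α) :
    Fintype.card α - 1 ≤ (univ.filter (adj a)).card * δ := by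
  classical
  set κ := (univ.filter (adj a)).card
  set P := (univ ×ˢ univ : Finset (α × α)).filter fun p => adj p.1 p.2 with hP
  have c1 : P.card ≤ Fintype.card α * κ := by
    have : P ⊆ univ.biUnion fun u => (univ.filter (adj u)).image fun v => (u, v) := by
      rintro ⟨u, v⟩ hp
      simp only [hP, mem_filter] at hp
      simp only [mem_biUnion, mem_image, mem_filter]
      exact ⟨u, mem_univ _, v, ⟨mem_univ _, hp.2⟩, rfl⟩
    exact (card_le_card this).trans (card_biUnion_le_card_mul _ _ _ fun u _ =>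
      card_image_le.trans (val_le hG adj hr u a))
  have c2 : ∀ z, Fintype.card α - 1 ≤ (P.filter fun p => z ∈ Dd G p.1 p.2).card := by
    intro z
    rw [← card_univ, ← card_erase_of_mem (mem_univ z)]
    refine le_trans (card_le_card fun w hw => ?_) (card_image_le (f := Prod.snd))
    have hwz : w ≠ z := (mem_erase.1 hw).1
    have h1 := Nat.find_spec (hc z w)
    have h2 := fun j => Nat.find_min (hc z w) (m := j)
    generalize Nat.find (hc z w) = i at h1 h2
    rcases i with _ | i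
    · exact absurd h1 hwz
    rcases h1 with h1 | ⟨w', h1, h3⟩
    · exact absurd h1 (h2 i (Nat.lt_succ_self i))
    refine mem_image.2 ⟨(w', w), mem_filter.2 ⟨by simpa [hP] using h3, mem_Dd.2 ?_⟩, rfl⟩
    rintro ⟨g, hg, e⟩
    have := Wk_map hr hg.1 h1
    rw [hg.2 z (mem_singleton_self z), show g w' = w from e] at this
    exact h2 i (Nat.lt_succ_self i) this
  have c3 : ∑ z, (P.filter fun p => z ∈ Dd G p.1 p.2).card = ∑ p ∈ P, (Dd G p.1 p.2).card := by
    simp only [card_filter]
    rw [sum_comm]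
    refine sum_congr rfl fun p _ => ?_
    rw [← card_filter]; simp
  have c4 : ∑ p ∈ P, (Dd G p.1 p.2).card ≤ P.card * δ :=
    sum_le_card_nsmul _ _ _ fun p hp => hδ _ _ (mem_filter.1 hp).2
  have c5 := card_nsmul_le_sum univ _ _ fun z _ => c2 z
  rw [c3, smul_eq_mul, card_univ] at c5
  have := c5.trans (c4.trans (Nat.mul_le_mul_right _ c1))
  rw [mul_assoc] at this
  exact Nat.le_of_mul_le_mul_left this (Fintype.card_pos_iff.2 ⟨a⟩)

theorem diam3 (hG : IsPreprimitive G α) [DecidableRel adj]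
    (hr : ∀ g ∈ G, ∀ x y, adj x y → adj (g x) (g y)) (hs : ∀ x y, adj x y → adj y x)
    (hi : ∀ x, ¬ adj x x)
    (hc : ∀ z w, ∃ i, Wk adj z i w) {δ : ℕ} (hδ : ∀ x y, adj x y → (Dd G x y).card ≤ δ)
    {x y : α} (h : ¬ Wk adj x 2 y) : 2 * (univ.filter (adj x)).card + 2 ≤ 3 * δ := by
  obtain ⟨y, h3, h⟩ : ∃ y, Wk adj x 3 y ∧ ¬ Wk adj x 2 y := by
    by_contra hh
    push Not at hh
    have : ∀ i w, Wk adj x i w → Wk adj x 2 w := by
      intro i
      induction i with
      | zero => exact fun w hw => Or.inl (Or.inl hw)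
      | succ i ih =>
        rintro w (hw | ⟨w', hw, h'⟩)
        · exact ih w hw
        · exact hh w (Or.inr ⟨w', ih w' hw, h'⟩)
    obtain ⟨i, hi⟩ := hc x y
    exact h (this i y hi)
  have n0 : y ≠ x := fun e => h (Or.inl (Or.inl e))
  have n1 : ¬ adj x y := fun e => h (Or.inl (Or.inr ⟨x, rfl, e⟩))
  have n2 : ∀ z, adj x z → ¬ adj y z := fun z e e' =>
    h (Or.inr ⟨z, Or.inr ⟨x, rfl, e⟩, hs _ _ e'⟩)
  have hsub : insert x (univ.filter (adj x)) ∪ insert y (univ.filter (adj y)) ⊆ Dd G x y := by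
    intro z hz
    rw [mem_Dd]
    intro hR
    simp only [mem_union, mem_insert, mem_filter, mem_univ, true_and] at hz
    rcases hz with (rfl | hz) | (rfl | hz)
    · exact n0 (hR.eq_of_mem (mem_singleton_self _)).symm
    · obtain ⟨g, hg, e⟩ := hR
      have := hr g hg.1 _ _ hz
      rw [e, hg.2 z (mem_singleton_self z)] at this
      exact n2 z hz this
    · exact n0 (hR.symm.eq_of_mem (mem_singleton_self _))
    · obtain ⟨g, hg, e⟩ := hR.symm
      have := hr g hg.1 _ _ hz
      rw [e, hg.2 z (mem_singleton_self z)] at this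
      exact n2 z this hz
  have hdis : Disjoint (insert x (univ.filter (adj x))) (insert y (univ.filter (adj y))) := by
    rw [disjoint_left]
    intro z hz hz'
    simp only [mem_insert, mem_filter, mem_univ, true_and] at hz hz'
    rcases hz with rfl | hz <;> rcases hz' with rfl | hz'
    exacts [n0 rfl, n1 (hs _ _ hz'), n1 hz, n2 z hz hz']
  have := card_le_card hsub
  rw [card_union_of_disjoint hdis, card_insert_of_notMem (by simp [hi]),
    card_insert_of_notMem (by simp [hi])] at this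
  have h4 := Wk_Dd hδ h3
  have h5 := val_le hG adj hr x y
  omega

end walk

theorem sum_Dd (x : α) : ∑ y, (Dd G x y).card = ∑ z, (Fintype.card α - (orb G {z} x).card) := by
  classical
  simp only [Dd, card_filter]
  rw [sum_comm]
  refine sum_congr rfl fun z _ => ?_
  rw [← card_filter, ← card_compl]
  congr 1
  ext y; simp [mem_orb]

theorem diam2 (hG : IsPreprimitive G α) (hn : 22 ≤ Fintype.card α)
    (h2 : ∃ z x y, x ≠ z ∧ y ≠ z ∧ ¬ R G {z} x y) {δ : ℕ} (hδ : ∀ x y, (Dd G x y).card ≤ 2 * δ) :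
    Fintype.card α - 1 ≤ δ ^ 2 := by
  classical
  obtain ⟨N, hN⟩ : ∃ N, Fintype.card α = N + 1 := ⟨Fintype.card α - 1, by omega⟩
  have c1 : ∀ x, ∑ z, (N + 1 - (orb G {x} z).card) ≤ N * (2 * δ) := by
    intro x
    have := sum_Dd (G := G) x
    rw [hN, ← add_sum_erase _ _ (mem_univ x), Dd_self, card_empty, zero_add] at this
    have h := sum_le_card_nsmul (univ.erase x) _ _ fun y _ => hδ x y
    rw [this, card_erase_of_mem (mem_univ x), card_univ, hN] at h
    simpa only [o_symm hG _ x, smul_eq_mul, add_tsub_cancel_right] using h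
  rw [hN, add_tsub_cancel_right]
  by_cases hd : ∃ z x, N < 2 * (orb G {z} x).card
  swap
  · push Not at hd
    obtain ⟨x, -⟩ := h2
    have h := card_nsmul_le_sum univ (fun z => 2 * (N + 1 - (orb G {x} z).card)) (N + 2)
      fun z _ => by have := hd x z; omega
    rw [← mul_sum, card_univ, hN, smul_eq_mul] at h
    have h' := c1 x
    have h3 : N + 2 < 4 * δ := by
      by_contra h3
      have := Nat.mul_le_mul_left N (not_lt.1 h3)
      nlinarith
    have : 4 ≤ δ := by omega
    nlinarith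
  obtain ⟨z, x, hd⟩ := hd
  have o1 : ∀ z : α, orb G {z} z = {z} := fun z => by
    ext y
    rw [mem_orb, mem_singleton]
    exact ⟨fun h => (h.eq_of_mem (mem_singleton_self _)).symm, fun h => h ▸ R.refl _ _⟩
  have hxz : x ≠ z := by rintro rfl; rw [o1, card_singleton] at hd; omega
  set A := orb G {z} x with hA
  let Λ : α → α → Prop := fun a b => a ≠ b ∧ 2 * (orb G {a} b).card ≤ N
  have Λs : ∀ a b, Λ a b → Λ b a := fun a b h => ⟨h.1.symm, o_symm hG a b ▸ h.2⟩
  have Λr : ∀ g ∈ G, ∀ a b, Λ a b → Λ (g a) (g b) := fun g hg a b h =>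
    ⟨g.injective.ne h.1, by rw [o_map hg]; exact h.2⟩
  set B := univ.filter (Λ z) with hB
  have hAz : z ∉ A := fun h => hxz ((mem_orb.1 h).symm.eq_of_mem (mem_singleton_self _)).symm
  have hcomp : ∀ w, w ≠ z → (orb G {z} w).card ≤ N := fun w hw => by
    have := card_le_card (orb_sub (G := G) (S := {z}) (x := w) (by simpa using hw))
    rwa [card_compl, hN, card_singleton] at this
  have hdom : ∀ w, w ≠ z → N < 2 * (orb G {z} w).card → w ∈ A := fun w hw h => by
    by_contra hwA
    have hdis : Disjoint A (orb G {z} w) := by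
      rw [disjoint_left]
      exact fun a ha ha' => hwA (mem_orb.2 ((mem_orb.1 ha).trans (mem_orb.1 ha').symm))
    have := card_le_card (union_subset (orb_sub (G := G) (S := {z}) (x := x) (by simpa using hxz))
      (orb_sub (G := G) (S := {z}) (x := w) (by simpa using hw)))
    rw [card_union_of_disjoint hdis, card_compl, hN, card_singleton] at this
    omega
  have hAo : ∀ w ∈ A, orb G {z} w = A := fun w hw => (orb_eq (mem_orb.1 hw)).symm
  have hB' : B = (insert z A)ᶜ := by
    ext w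
    simp only [hB, mem_filter, mem_univ, true_and, mem_compl, mem_insert, not_or, Λ]
    constructor
    · rintro ⟨h1, h2⟩
      exact ⟨h1.symm, fun h => by rw [hAo w h] at h2; omega⟩
    · rintro ⟨h1, h2⟩
      exact ⟨Ne.symm h1, not_lt.1 fun h => h2 (hdom w h1 h)⟩
  have hρl : A.card + B.card = N := by
    have : A.card ≤ N := hcomp x hxz
    rw [hB', card_compl, hN, card_insert_of_notMem hAz]; omega
  have hBo : ∀ w ∈ B, (orb G {z} w).card ≤ B.card := fun w hw => by
    refine card_le_card fun a ha => ?_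
    rw [hB', mem_compl, mem_insert, not_or] at hw ⊢
    refine ⟨fun e => hw.1 ?_, fun h => hw.2 ?_⟩
    · exact ((mem_orb.1 ha).symm.eq_of_mem (by simp [e])).symm.trans e
    · exact mem_orb.2 ((mem_orb.1 h).trans (mem_orb.1 ha).symm)
  have c2 : N + (A.card * (B.card + 1) + B.card * (A.card + 1)) ≤ N * (2 * δ) := by
    refine le_trans ?_ (c1 z)
    rw [← sum_add_sum_compl (insert z A), sum_insert hAz, ← hB', o1, card_singleton, add_assoc]
    refine add_le_add le_rfl (add_le_add ?_ ?_)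
    · exact card_nsmul_le_sum A (fun w => N + 1 - (orb G {z} w).card) (B.card + 1)
        fun w hw => by rw [hAo w hw]; omega
    · exact card_nsmul_le_sum B (fun w => N + 1 - (orb G {z} w).card) (A.card + 1)
        fun w hw => by have := hBo w hw; omega
  obtain ⟨b, hb⟩ : ∃ b, Λ z b := by
    obtain ⟨z', x', y', h1, h2, h3⟩ := h2
    obtain ⟨g, hg, rfl⟩ := tr1 hG z' z
    by_contra hh
    push Not at hh
    have : ∀ w, w ≠ z' → g w ∈ A := fun w hw =>
      hdom _ (g.injective.ne hw) (not_le.1 fun h => hh _ ⟨g.injective.ne hw.symm, h⟩)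
    exact h3 (R_one' hg ((mem_orb.1 (this _ h1)).symm.trans (mem_orb.1 (this _ h2))))
  obtain ⟨p, q, hq, h1, h2⟩ : ∃ p q, q ∈ A ∧ Λ z p ∧ Λ p q := by
    by_contra hh
    push Not at hh
    have := eqv hG (fun a b => a = b ∨ Λ a b) (fun g hg a b h => h.imp (congrArg g) (Λr g hg a b))
      (Or.inl rfl) (fun P Q R h h' => ?_) (Or.inr hb) hb.1.symm z x
    · rcases this with e | e
      · exact hxz e.symm
      · exact absurd e.2 (not_le.2 hd)
    rcases h with rfl | h
    · exact h'
    rcases h' with rfl | h'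
    · exact Or.inr (Λs _ _ h)
    by_contra hc
    push Not at hc
    obtain ⟨g, hg, rfl⟩ := tr1 hG Q z
    refine hh (g P) (g R) (hdom _ (g.injective.ne hc.1.symm) ?_) (Λr g hg _ _ (Λs _ _ h))
      (Λr g hg _ _ h')
    rw [o_map hg]
    exact not_le.1 fun h => hc.2 ⟨hc.1, h⟩
  have c3 : A.card + 1 ≤ B.card * B.card := by
    have : insert z A ⊆ B.biUnion fun u => univ.filter (Λ u) := by
      intro w hw
      simp only [mem_biUnion, hB, mem_filter, mem_univ, true_and]
      rcases mem_insert.1 hw with rfl | hw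
      · exact ⟨p, h1, Λs _ _ h1⟩
      obtain ⟨g, hg, rfl⟩ := (mem_orb.1 hq).symm.trans (mem_orb.1 hw)
      have := Λr g hg.1 _ _ h1
      rw [hg.2 z (mem_singleton_self z)] at this
      exact ⟨g p, this, Λr g hg.1 _ _ h2⟩
    have := (card_le_card this).trans (card_biUnion_le_card_mul _ _ _ fun u _ => val_le hG Λ Λr u z)
    rwa [card_insert_of_notMem hAz] at this
  generalize A.card = ρ at *
  generalize B.card = l at *
  by_contra hc
  push Not at hc
  have hl : δ ≤ l := by
    by_contra h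
    have h : l + 1 ≤ δ := not_le.1 h
    nlinarith [Nat.mul_le_mul h h]
  obtain ⟨a, rfl⟩ := Nat.exists_eq_add_of_le hl
  obtain ⟨c, rfl⟩ := Nat.exists_eq_add_of_le (show δ ≤ ρ by omega)
  subst hρl
  nlinarith [Nat.zero_le (a * c)]

open Classical in
theorem uni (hG : IsPreprimitive G α) (hn : 22 ≤ Fintype.card α)
    (h2 : ∃ z x y, x ≠ z ∧ y ≠ z ∧ ¬ R G {z} x y) :
    ∃ δ : ℕ, 2 * (Fintype.card α - 1) + 2 * δ ≤ 3 * δ ^ 2 ∧ ∀ t : ℝ, 0 ≤ t → t ≤ 1 →
      ∀ x y, x ≠ y → Ex t ((∅ : Finset α)ᶜ.erase x)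
        (fun S => if R G (∅ ∪ S) x y then 1 else 0) ≤ (1 - t) ^ (δ - 1) := by
  obtain ⟨⟨a, b⟩, hab, hmin⟩ := exists_min_image (univ : Finset α).offDiag
    (fun p => (Dd G p.1 p.2).card) (by
      obtain ⟨z, x, -, h, -⟩ := h2
      exact ⟨(x, z), by simpa using h⟩)
  have hab : a ≠ b := by simpa using hab
  set δ := (Dd G a b).card
  refine ⟨δ, ?_, fun t t0 t1 x y hxy => ?_⟩
  · let adj : α → α → Prop := fun x y => x ≠ y ∧ (Dd G x y).card ≤ δ
    have hr : ∀ g ∈ G, ∀ x y, adj x y → adj (g x) (g y) := fun g hg x y h =>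
      ⟨g.injective.ne h.1, (Dd_map hg x y).trans h.2⟩
    have hs : ∀ x y, adj x y → adj y x := fun x y h => ⟨h.1.symm, Dd_symm (G := G) x y ▸ h.2⟩
    have hc := Wk_conn hG hr hs (a := a) (b := b) ⟨hab, le_rfl⟩ hab.symm
    have hδ : ∀ x y, adj x y → (Dd G x y).card ≤ δ := fun x y h => h.2
    by_cases h : ∀ x y, Wk adj x 2 y
    · have := diam2 hG hn h2 fun x y => Wk_Dd hδ (h x y)
      have h3 : 2 ≤ δ := by
        by_contra h3
        have : δ ^ 2 ≤ 1 ^ 2 := Nat.pow_le_pow_left (by omega) 2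
        omega
      nlinarith
    · push Not at h
      obtain ⟨x, y, h⟩ := h
      have h1 := diam3 hG hr hs (fun x h => h.1 rfl) hc hδ h
      have h3 := val_mul hG hr hc hδ x
      nlinarith [Nat.mul_le_mul_right δ h1]
  · have hD : (Dd G x y).erase x ⊆ (∅ : Finset α)ᶜ.erase x :=
      erase_subset_erase _ fun z _ => by simp
    have h1 := Ex_avoid t hD (fun _ => 1)
    rw [Ex_const, mul_one] at h1
    have h3 : δ - 1 ≤ ((Dd G x y).erase x).card :=
      le_trans (Nat.sub_le_sub_right (hmin (x, y) (by simpa using hxy)) 1) pred_card_le_card_erase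
    refine le_trans ?_ (h1.le.trans (pow_le_pow_of_le_one (by linarith) (by linarith) h3))
    refine Ex_mono t0 t1 fun S _ => ?_
    split_ifs with h4 h5
    · rfl
    · rw [not_disjoint_iff] at h5
      obtain ⟨z, hz, hz'⟩ := h5
      exact absurd (h4.anti (by simpa using hz)) (mem_Dd.1 (mem_of_mem_erase hz'))
    · norm_num
    · rfl

end CF.PrS
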