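import Cfsg.Agent.PrS.C

set_option autoImplicit false

namespace CF.PrS
open Finset Equiv MulAction

variable {α : Type*} [Fintype α] [DecidableEq α] {G : Subgroup (Perm α)}

variable (G) in
/-- points in small orbits -/
noncomputable def Sm (S : Finset α) : Finset α :=
  Sᶜ.filter fun x => 2 * (orb G S x).card ≤ Sᶜ.card

theorem mem_Sm {S : Finset α} {x : α} :
    x ∈ Sm G S ↔ x ∉ S ∧ 2 * (orb G S x).card ≤ Sᶜ.card := by simp [Sm]

theorem R_of_big {S : Finset α} {a b : α} (ha : a ∉ S) (hb : b ∉ S) (ha' : a ∉ Sm G S)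
    (hb' : b ∉ Sm G S) : R G S a b := by
  rw [mem_Sm] at ha' hb'
  by_contra h
  have hdis : Disjoint (orb G S a) (orb G S b) := by
    rw [disjoint_left]
    exact fun z hz hz' => h ((mem_orb.1 hz).trans (mem_orb.1 hz').symm)
  have := card_le_card (union_subset (orb_sub (G := G) ha) (orb_sub (G := G) hb))
  rw [card_union_of_disjoint hdis] at this
  have h1 := not_le.1 fun h => ha' ⟨ha, h⟩
  have h2 := not_le.1 fun h => hb' ⟨hb, h⟩
  omega

theorem orb_Sm {S : Finset α} {w : α} (hw : w ∈ Sm G S) : orb G S w ⊆ Sm G S := fun a ha => by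
  rw [mem_Sm] at hw ⊢
  exact ⟨(mem_orb.1 ha).notMem hw.1, orb_eq (mem_orb.1 ha) ▸ hw.2⟩

theorem orb_big {S : Finset α} {w : α} (hw : w ∉ S) (hw' : w ∉ Sm G S) :
    (orb G S w).card + (Sm G S).card = Sᶜ.card := by
  have : orb G S w = Sᶜ \ Sm G S := by
    ext a
    rw [mem_orb, mem_sdiff, mem_compl]
    exact ⟨fun h => ⟨h.notMem hw, fun h' => hw' (orb_Sm h' (mem_orb.2 h.symm))⟩,
      fun h => R_of_big hw h.1 hw' h.2⟩
  rw [this]
  exact card_sdiff_add_card_eq_card (filter_subset _ _)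

open Classical in
theorem out_eq (S : Finset α) : ((Sᶜ ×ˢ Sᶜ).filter fun p => ¬ R G S p.1 p.2).card =
    ∑ x ∈ Sᶜ, (Sᶜ.card - (orb G S x).card) := by
  rw [card_filter, sum_product]
  refine sum_congr rfl fun x hx => ?_
  rw [← card_filter, ← card_sdiff_of_subset (orb_sub (mem_compl.1 hx))]
  congr 1
  ext y; simp [mem_orb]

theorem out_dom (S : Finset α) : (Sᶜ.card - (Sm G S).card) * (2 * (Sm G S).card) ≤
    ∑ x ∈ Sᶜ, (Sᶜ.card - (orb G S x).card) := by
  have hs : Sm G S ⊆ Sᶜ := filter_subset _ _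
  rw [← sum_sdiff hs]
  have h1 := card_nsmul_le_sum (Sᶜ \ Sm G S) (fun x => Sᶜ.card - (orb G S x).card) (Sm G S).card
    fun w hw => by
      have := orb_big (G := G) (mem_compl.1 (mem_sdiff.1 hw).1) (mem_sdiff.1 hw).2
      omega
  have h2 := card_nsmul_le_sum (Sm G S) (fun x => Sᶜ.card - (orb G S x).card)
    (Sᶜ.card - (Sm G S).card) fun w hw => by
      have := card_le_card (orb_Sm hw)
      omega
  rw [card_sdiff_of_subset hs] at h1
  simp only [smul_eq_mul] at h1 h2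
  nlinarith

theorem out_nondom (S : Finset α) (h : Sᶜ.card ≤ 2 * (Sm G S).card) :
    Sᶜ.card * ((Sᶜ.card + 1) / 2) ≤ ∑ x ∈ Sᶜ, (Sᶜ.card - (orb G S x).card) :=
  card_nsmul_le_sum Sᶜ (fun x => Sᶜ.card - (orb G S x).card) _ fun w hw => by
    have hw' := mem_compl.1 hw
    by_cases h1 : w ∈ Sm G S
    · have := (mem_Sm.1 h1).2; omega
    · have h2 := orb_big hw' h1
      omega

variable (G) in
/-- two-transitivity off `F` -/
def T2 (F : Finset α) : Prop :=
  ∀ x ∉ F, ∀ y ∉ F, ∀ x' ∉ F, ∀ y' ∉ F, x ≠ y → x' ≠ y' → ∃ g ∈ St G F, g x = x' ∧ g y = y'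

variable {F : Finset α}

theorem map2 {g : Perm α} (hg : g ∈ St G F) (u v : α) :
    ∀ z ∈ insert (g u) (insert (g v) F), ∃ z' ∈ insert u (insert v F), g z' = z := by
  intro z hz
  simp only [mem_insert] at hz ⊢
  rcases hz with rfl | rfl | hz
  exacts [⟨u, Or.inl rfl, rfl⟩, ⟨v, Or.inr (Or.inl rfl), rfl⟩, ⟨z, Or.inr (Or.inr hz), hg.2 z hz⟩]

theorem notMem_map {g : Perm α} (hg : g ∈ St G F) {x : α} (hx : x ∉ F) : g x ∉ F :=
  R.notMem ⟨g, hg, rfl⟩ hx

theorem T2.ord_le (h : T2 G F) {u v x y : α} (hu : u ∉ F) (hv : v ∉ F) (huv : u ≠ v) (hx : x ∉ F)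
    (hy : y ∉ F) (hxy : x ≠ y) : ord G (insert u (insert v F)) ≤ ord G (insert x (insert y F)) := by
  obtain ⟨g, hg, rfl, rfl⟩ := h u hu v hv x hx y hy huv hxy
  exact PrS.ord_le hg.1 (map2 hg u v)

theorem T2.o_symm (h : T2 G F) {u v x : α} (hu : u ∉ F) (hv : v ∉ F) (hx : x ∉ F) (huv : u ≠ v)
    (hux : u ≠ x) : (orb G (insert u (insert v F)) x).card =
      (orb G (insert u (insert x F)) v).card := by
  have e1 := ord_eq (G := G) (insert u (insert v F)) x
  have e2 := ord_eq (G := G) (insert u (insert x F)) v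
  rw [le_antisymm (h.ord_le hu hx hux hu hv huv) (h.ord_le hu hv huv hu hx hux), e1,
    show insert v (insert u (insert x F)) = insert x (insert u (insert v F)) by
      ext; simp only [mem_insert]; tauto] at e2
  exact Nat.eq_of_mul_eq_mul_right (ord_pos _) e2

theorem card2 {u v : α} (hu : u ∉ F) (hv : v ∉ F) (huv : u ≠ v) :
    (insert u (insert v F))ᶜ.card = Fᶜ.card - 2 := by
  rw [card_compl, card_compl, card_insert_of_notMem (by simp [huv, hu]), card_insert_of_notMem hv]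
  omega

theorem T2.Sm_le (h : T2 G F) {u v x y : α} (hu : u ∉ F) (hv : v ∉ F) (huv : u ≠ v) (hx : x ∉ F)
    (hy : y ∉ F) (hxy : x ≠ y) :
    (Sm G (insert u (insert v F))).card ≤ (Sm G (insert x (insert y F))).card := by
  obtain ⟨g, hg, rfl, rfl⟩ := h x hx y hy u hu v hv hxy huv
  refine card_le_card_of_injOn (g⁻¹ : Perm α) (fun z hz => ?_) (g⁻¹).injective.injOn
  obtain ⟨z, rfl⟩ := g.surjective z
  rw [mem_coe, mem_Sm, card2 hu hv huv] at hz
  rw [mem_coe, mem_Sm, card2 hx hy hxy, show g⁻¹ (g z) = z by simp]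
  refine ⟨fun hz' => hz.1 ?_, le_trans (Nat.mul_le_mul_left 2 (orb_le hg.1 (map2 hg x y) z)) hz.2⟩
  simp only [mem_insert] at hz' ⊢
  rcases hz' with rfl | rfl | hz'
  exacts [Or.inl rfl, Or.inr (Or.inl rfl), Or.inr (Or.inr (by rwa [hg.2 z hz']))]

open Classical in
theorem T2.edg (h : T2 G F) {c : ℕ}
    (hc : ∀ u ∉ F, ∀ v ∉ F, u ≠ v → c ≤ ∑ x ∈ (insert u (insert v F))ᶜ,
      ((insert u (insert v F))ᶜ.card - (orb G (insert u (insert v F)) x).card))
    {x y : α} (hx : x ∉ F) (hy : y ∉ F) (hxy : x ≠ y) :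
    c ≤ edg (fun u v => u ≠ v ∧ ¬ R G (insert u (insert v F)) x y) (insert x (insert y F))ᶜ := by
  let r : α × α → α × α → Prop := fun p q => q.1 ≠ p.1 ∧ q.1 ≠ p.2 ∧ q.2 ≠ p.1 ∧ q.2 ≠ p.2 ∧
    ¬ R G (insert p.1 (insert p.2 F)) q.1 q.2
  have key := card_mul_le_card_mul (s := Fᶜ.offDiag) (t := Fᶜ.offDiag) r (m := c)
    (n := PrS.edg (fun u v => u ≠ v ∧ ¬ R G (insert u (insert v F)) x y) (insert x (insert y F))ᶜ)
    (by
      rintro ⟨u, v⟩ hp
      simp only [mem_offDiag, mem_compl] at hp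
      refine (hc u hp.1 v hp.2.1 hp.2.2).trans ?_
      rw [← out_eq]
      refine card_le_card ?_
      rintro ⟨a, b⟩ hq
      simp only [mem_filter, mem_product, mem_compl, mem_insert, not_or] at hq
      simp only [mem_bipartiteAbove, mem_offDiag, mem_compl, r]
      exact ⟨⟨hq.1.1.2.2, hq.1.2.2.2, fun e => hq.2 (e ▸ R.refl _ _)⟩, hq.1.1.1, hq.1.1.2.1,
        hq.1.2.1, hq.1.2.2.1, hq.2⟩)
    (by
      rintro ⟨a, b⟩ hq
      simp only [mem_offDiag, mem_compl] at hq
      obtain ⟨g, hg, rfl, rfl⟩ := h a hq.1 b hq.2.1 x hx y hy hq.2.2 hxy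
      refine card_le_card_of_injOn (fun p => (g p.1, g p.2)) ?_ ?_
      · rintro ⟨u, v⟩ hp
        simp only [coe_bipartiteBelow, mem_offDiag, mem_compl, r, Set.mem_ofPred_eq, mem_coe] at hp
        obtain ⟨⟨h1, h2, h3⟩, h4, h5, h6, h7, h8⟩ := hp
        simp only [coe_filter, mem_product, mem_compl, mem_insert, not_or, Set.mem_ofPred_eq]
        refine ⟨⟨⟨g.injective.ne h4.symm, g.injective.ne h6.symm, notMem_map hg h1⟩,
          g.injective.ne h5.symm, g.injective.ne h7.symm, notMem_map hg h2⟩, g.injective.ne h3,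
          fun h9 => h8 ?_⟩
        have := h9.map (inv_mem hg).1 (map2 (inv_mem hg) (g u) (g v))
        simpa using this
      · rintro ⟨u, v⟩ - ⟨u', v'⟩ - e
        simpa using e)
  exact Nat.le_of_mul_le_mul_left key (card_pos.2 ⟨(x, y), by simp [hx, hy, hxy]⟩)

open Classical in
theorem pi_le {x y : α} (hx : x ∉ F) (hy : y ∉ F) (hxy : x ≠ y) {t r : ℝ} (h0 : 0 ≤ t) (h1 : t ≤ 1)
    {Δ E : ℕ} (hΔ : 0 < Δ) (hr : Adm t r Δ)
    (hd : ∀ u ∈ (insert x (insert y F))ᶜ, ((insert x (insert y F))ᶜ.filter fun v =>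
      u ≠ v ∧ ¬ R G (insert u (insert v F)) x y).card ≤ Δ)
    (hE : E * Δ ≤ edg (fun u v => u ≠ v ∧ ¬ R G (insert u (insert v F)) x y)
      (insert x (insert y F))ᶜ) :
    Ex t (Fᶜ.erase x) (fun S => if R G (F ∪ S) x y then 1 else 0) ≤ (1 - t) * r ^ E := by
  have key := indep (fun u v => u ≠ v ∧ ¬ R G (insert u (insert v F)) x y)
    (fun u v h => ⟨h.1.symm, by rw [insert_comm]; exact h.2⟩) (fun u h => h.1 rfl) h0 h1 hΔ hr
    _ hd hE
  have e := Ex_avoid t (V := Fᶜ.erase x) (D := {y}) (by simp [hy, hxy.symm])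
    (ind fun u v => u ≠ v ∧ ¬ R G (insert u (insert v F)) x y)
  rw [card_singleton, pow_one, show Fᶜ.erase x \ {y} = (insert x (insert y F))ᶜ by
    ext; simp; tauto] at e
  refine le_trans (Ex_mono h0 h1 fun S _ => ?_)
    (e.le.trans (mul_le_mul_of_nonneg_left key (by linarith)))
  unfold ind
  split_ifs with h2 h3 h4 h3 h4
  · rfl
  · refine absurd (fun u hu v hv h5 => h5.2 (h2.anti ?_)) h4
    exact insert_subset (mem_union_right _ hu) (insert_subset (mem_union_right _ hv)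
      subset_union_left)
  · exact absurd (h2.symm.eq_of_mem (mem_union_right _ (by simpa using h3))).symm hxy
  · norm_num
  · rfl
  · rfl

theorem T2.closure (h : T2 G F)
    (hw : ∀ u ∉ F, ∀ v ∉ F, u ≠ v → ∃ w ∉ insert u (insert v F),
      ∀ g ∈ St G (insert u (insert v F)), g w = w) (hm : 0 < Fᶜ.card) {j : ℕ}
    (hj : Fᶜ.card < 2 ^ j) : ord G F ≤ Fᶜ.card ^ j := by
  classical
  choose! w hw1 hw2 using hw
  let cl : Finset α → Finset α := fun T => Fᶜ.filter fun x => ∀ g ∈ St G T, g x = x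
  have mcl : ∀ {T x}, x ∈ cl T ↔ x ∉ F ∧ ∀ g ∈ St G T, g x = x := by simp [cl]
  have key : ∀ j T, F ⊆ T → Fᶜ.card + 1 ≤ 2 ^ j * ((cl T).card + 1) → ord G T ≤ Fᶜ.card ^ j := by
    intro j
    have triv : ∀ T, F ⊆ T → (∀ x ∉ F, x ∈ cl T) → ord G T = 1 := fun T hT hh =>
      ord_eq_one fun g hg x => by
        by_cases hx : x ∈ F
        exacts [hg.2 x (hT hx), (mcl.1 (hh x hx)).2 g hg]
    induction j with
    | zero =>
      intro T hT hc
      rw [pow_zero]
      refine (triv T hT fun x hx => ?_).le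
      have : cl T = Fᶜ := eq_of_subset_of_card_le (filter_subset _ _) (by omega)
      rw [this]; exact mem_compl.2 hx
    | succ j ih =>
      intro T hT hc
      by_cases hh : ∀ x ∉ F, x ∈ cl T
      · rw [triv T hT hh]
        exact Nat.one_le_pow _ _ hm
      push Not at hh
      obtain ⟨x, hx, hxT⟩ := hh
      have fixT : ∀ s ∈ cl T, ∀ s' ∈ cl T, s ≠ s' →
          ¬ ∀ g ∈ St G (insert x (insert s F)), g s' = s' := by
        intro s hs s' hs' hne hf
        have hxs : x ≠ s := fun e => hxT (e ▸ hs)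
        have e := St_eq_of_le (G := G) (S := insert x (insert s F)) (T := insert s (insert s' F))
          (fun g hg => ⟨hg.1, fun z hz => by
            simp only [mem_insert] at hz
            rcases hz with rfl | rfl | hz
            exacts [hg.2 _ (by simp), hf g hg, hg.2 _ (by simp [hz])]⟩)
          (h.ord_le (mcl.1 hs).1 (mcl.1 hs').1 hne hx (mcl.1 hs).1 hxs)
        refine hxT (mcl.2 ⟨hx, fun g hg => ?_⟩)
        have : g ∈ St G (insert x (insert s F)) := e ▸ ⟨hg.1, fun z hz => by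
          simp only [mem_insert] at hz
          rcases hz with rfl | rfl | hz
          exacts [(mcl.1 hs).2 g hg, (mcl.1 hs').2 g hg, hg.2 _ (hT hz)]⟩
        exact this.2 x (mem_insert_self _ _)
      have hxs : ∀ s ∈ cl T, x ≠ s := fun s hs e => hxT (e ▸ hs)
      have w1 : ∀ s ∈ cl T, w x s ≠ x ∧ w x s ≠ s ∧ w x s ∉ F := fun s hs => by
        simpa [not_or] using hw1 x hx s (mcl.1 hs).1 (hxs s hs)
      have w2 : ∀ s ∈ cl T, ∀ g ∈ St G (insert x (insert s F)), g (w x s) = w x s :=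
        fun s hs => hw2 x hx s (mcl.1 hs).1 (hxs s hs)
      have w3 : ∀ s ∈ cl T, St G (insert x (insert s F)) = St G (insert x (insert (w x s) F)) :=
        fun s hs => St_eq_of_le (fun g hg => ⟨hg.1, fun z hz => by
            simp only [mem_insert] at hz
            rcases hz with rfl | rfl | hz
            exacts [hg.2 _ (by simp), w2 s hs g hg, hg.2 _ (by simp [hz])]⟩)
          (h.ord_le hx (w1 s hs).2.2 (w1 s hs).1.symm hx (mcl.1 hs).1 (hxs s hs))
      have inj : Set.InjOn (w x) (cl T) := fun s hs s' hs' e => by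
        by_contra hne
        refine fixT s hs s' hs' hne fun g hg => ?_
        rw [w3 s hs, e, ← w3 s' hs'] at hg
        exact hg.2 s' (by simp)
      have sub : insert x (cl T ∪ (cl T).image (w x)) ⊆ cl (insert x T) := by
        intro z hz
        simp only [mem_insert, mem_union, mem_image] at hz
        rcases hz with rfl | hz | ⟨s, hs, rfl⟩
        · exact mcl.2 ⟨hx, fun g hg => hg.2 _ (mem_insert_self _ _)⟩
        · exact mcl.2 ⟨(mcl.1 hz).1, fun g hg => (mcl.1 hz).2 g (St_anti (subset_insert _ _) hg)⟩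
        · refine mcl.2 ⟨(w1 s hs).2.2, fun g hg => w2 s hs g ⟨hg.1, fun z hz => ?_⟩⟩
          simp only [mem_insert] at hz
          rcases hz with rfl | rfl | hz
          exacts [hg.2 _ (mem_insert_self _ _),
            (mcl.1 hs).2 g (St_anti (subset_insert _ _) hg), hg.2 _ (mem_insert_of_mem (hT hz))]
      have dis : Disjoint (cl T) ((cl T).image (w x)) := by
        rw [disjoint_right]
        intro z hz hz'
        obtain ⟨s, hs, rfl⟩ := mem_image.1 hz
        exact fixT s hs _ hz' (w1 s hs).2.1.symm (w2 s hs)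
      have c1 := card_le_card sub
      rw [card_insert_of_notMem (by
        simp only [mem_union, mem_image, not_or, not_exists, not_and]
        exact ⟨hxT, fun s hs => (w1 s hs).1⟩), card_union_of_disjoint dis,
        card_image_of_injOn inj] at c1
      have c2 := ih (insert x T) (hT.trans (subset_insert _ _)) (hc.trans (by
        rw [pow_succ, mul_assoc]; exact Nat.mul_le_mul_left _ (by omega)))
      rw [ord_eq T x, pow_succ']
      refine Nat.mul_le_mul (card_le_card fun y hy => mem_compl.2 ?_) c2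
      exact ((mem_orb.1 hy).anti hT).notMem hx
  exact key j F Subset.rfl (by nlinarith [Nat.zero_le (2 ^ j * (cl F).card)])

open Classical in
theorem T2.main (h : T2 G F)
    (h3 : ∃ u ∉ F, ∃ v ∉ F, u ≠ v ∧ ∃ x ∉ insert u (insert v F), ∃ y ∉ insert u (insert v F),
      ¬ R G (insert u (insert v F)) x y) (hm : 4 ≤ Fᶜ.card) :
    ∃ Δ E : ℕ, (∀ t r : ℝ, 0 ≤ t → t ≤ 1 → Adm t r Δ → ∀ x ∉ F, ∀ y ∉ F, x ≠ y →
      Ex t (Fᶜ.erase x) (fun S => if R G (F ∪ S) x y then 1 else 0) ≤ (1 - t) * r ^ E) ∧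
      ((∃ l, 1 ≤ l ∧ 2 * l < Fᶜ.card - 2 ∧ Δ = 2 * l ∧ E = Fᶜ.card - 2 - l ∧
        (l = 1 → ∀ j, Fᶜ.card < 2 ^ j → ord G F ≤ Fᶜ.card ^ j)) ∨
        (Δ = Fᶜ.card - 3 ∧ E = (Fᶜ.card - 1) / 2)) := by
  obtain ⟨u0, hu0, v0, hv0, huv0, x0, hx0, y0, hy0, h3⟩ := h3
  set l := (Sm G (insert u0 (insert v0 F))).card with hl
  have hl' : ∀ u ∉ F, ∀ v ∉ F, u ≠ v → (Sm G (insert u (insert v F))).card = l :=
    fun u hu v hv huv => le_antisymm (h.Sm_le hu hv huv hu0 hv0 huv0) (h.Sm_le hu0 hv0 huv0 hu hv huv)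
  by_cases hd : 2 * l < Fᶜ.card - 2
  · have l1 : 1 ≤ l := by
      by_contra h0
      have h0 : Sm G (insert u0 (insert v0 F)) = ∅ := card_eq_zero.1 (by omega)
      exact h3 (R_of_big hx0 hy0 (by simp [h0]) (by simp [h0]))
    refine ⟨2 * l, Fᶜ.card - 2 - l, fun t r t0 t1 hr x hx y hy hxy => pi_le hx hy hxy t0 t1
      (by omega) hr (fun u hu => ?_) (h.edg (fun u hu v hv huv => ?_) hx hy hxy),
      Or.inl ⟨l, l1, hd, rfl, rfl, fun e j hj => h.closure (fun u hu v hv huv => ?_) (by omega) hj⟩⟩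
    · simp only [mem_compl, mem_insert, not_or] at hu
      have : ((insert x (insert y F))ᶜ.filter fun v => u ≠ v ∧ ¬ R G (insert u (insert v F)) x y) ⊆
          Sm G (insert u (insert x F)) ∪ Sm G (insert u (insert y F)) := by
        intro v hv
        simp only [mem_filter, mem_compl, mem_insert, not_or] at hv
        obtain ⟨⟨h1, h2, h4⟩, h5, h6⟩ := hv
        by_contra hc
        simp only [mem_union, mem_Sm, not_or, mem_insert, not_and] at hc
        refine h6 (R_of_big (by simp [hx, Ne.symm hu.1, Ne.symm h1])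
          (by simp [hy, Ne.symm hu.2.1, Ne.symm h2]) (fun h7 => hc.1 ⟨h5.symm, h1, h4⟩ ?_)
          (fun h7 => hc.2 ⟨h5.symm, h2, h4⟩ ?_))
        · rw [card2 hu.2.2 hx hu.1, ← h.o_symm hu.2.2 h4 hx h5 hu.1, ← card2 hu.2.2 h4 h5]
          exact (mem_Sm.1 h7).2
        · rw [card2 hu.2.2 hy hu.2.1, ← h.o_symm hu.2.2 h4 hy h5 hu.2.1, ← card2 hu.2.2 h4 h5]
          exact (mem_Sm.1 h7).2
      have := (card_le_card this).trans (card_union_le _ _)
      rw [hl' u hu.2.2 x hx hu.1, hl' u hu.2.2 y hy hu.2.1] at this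
      omega
    · have := out_dom (G := G) (insert u (insert v F))
      rwa [hl' u hu v hv huv, ← card2 hu hv huv] at *
    · obtain ⟨w, hw⟩ := card_eq_one.1 ((hl' u hu v hv huv).trans e)
      have hw' : w ∈ Sm G (insert u (insert v F)) := hw ▸ mem_singleton_self w
      refine ⟨w, (mem_Sm.1 hw').1, fun g hg => ?_⟩
      have := orb_Sm hw' (mem_orb.2 ⟨g, hg, rfl⟩)
      rwa [hw, mem_singleton] at this
  · refine ⟨Fᶜ.card - 3, (Fᶜ.card - 1) / 2, fun t r t0 t1 hr x hx y hy hxy => pi_le hx hy hxy t0 t1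
      (by omega) hr (fun u hu => ?_) (h.edg (fun u hu v hv huv => ?_) hx hy hxy), Or.inr ⟨rfl, rfl⟩⟩
    · have : ((insert x (insert y F))ᶜ.filter fun v => u ≠ v ∧ ¬ R G (insert u (insert v F)) x y) ⊆
          (insert x (insert y F))ᶜ.erase u := fun v hv =>
        mem_erase.2 ⟨(mem_filter.1 hv).2.1.symm, (mem_filter.1 hv).1⟩
      have := card_le_card this
      rw [card_erase_of_mem hu, card2 hx hy hxy] at this
      omega
    · have := out_nondom (G := G) (insert u (insert v F)) (by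
        rw [hl' u hu v hv huv, card2 hu hv huv]; omega)
      refine le_trans ?_ this
      rw [card2 hu hv huv, mul_comm, show Fᶜ.card - 2 + 1 = Fᶜ.card - 1 by omega]
      exact Nat.mul_le_mul_right _ (by omega)

end CF.PrS
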