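import Cfsg.Agent.PrS.D
import Cfsg.Agent.Perm.PrimeDegree3
import Cfsg.Agent.S0711

set_option autoImplicit false

namespace CF.PrS
open Finset Equiv MulAction

variable {α : Type*} [Fintype α] [DecidableEq α] {G : Subgroup (Perm α)}

variable (G) in
/-- `k`-fold transitivity -/
def Tr (k : ℕ) : Prop := ∀ T : Finset α, T.card ≤ k → ∀ σ : Perm α, ∃ g ∈ G, ∀ x ∈ T, g x = σ x

theorem tr_one (hG : IsPreprimitive G α) : Tr G 1 := by
  intro T hT σ
  rcases T.eq_empty_or_nonempty with rfl | ⟨a, ha⟩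
  · exact ⟨1, one_mem _, by simp⟩
  obtain ⟨g, hg, e⟩ := tr1 hG a (σ a)
  exact ⟨g, hg, fun x hx => by rwa [card_le_one.1 hT x hx a ha]⟩

theorem Tr.mult {k : ℕ} (h : Tr G k) : IsMultiplyPretransitive G α k := by
  rw [isMultiplyPretransitive_iff]
  intro x y
  obtain ⟨σ, hσ⟩ := Perm.exists_extending_pair x y x.injective y.injective
  obtain ⟨g, hg, e⟩ := h (univ.map x) (by simp) σ
  exact ⟨⟨g, hg⟩, Function.Embedding.ext fun i => (e (x i) (by simp)).trans (hσ i)⟩

theorem Tr.t2 {k : ℕ} (h : Tr G k) {F : Finset α} (hF : F.card + 2 ≤ k) : T2 G F := by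
  intro x hx y hy x' hx' y' hy' hxy hxy'
  obtain ⟨g, hg, e⟩ := h (insert x (insert y F)) ((card_insert_le _ _).trans
    ((Nat.succ_le_succ (card_insert_le _ _)).trans hF)) (swap (swap x x' y) y' * swap x x')
  have h1 : swap x x' y ∉ F := by
    rw [swap_apply_def]; split_ifs <;> assumption
  refine ⟨g, ⟨hg, fun z hz => ?_⟩, ?_, ?_⟩
  · rw [e z (by simp [hz]), Perm.mul_apply, swap_apply_of_ne_of_ne (a := x) (b := x') (x := z)
      (fun e => hx (e ▸ hz)) (fun e => hx' (e ▸ hz)),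
      swap_apply_of_ne_of_ne (ne_of_mem_of_not_mem hz h1) (ne_of_mem_of_not_mem hz hy')]
  · rw [e x (by simp), Perm.mul_apply, swap_apply_left, swap_apply_of_ne_of_ne _ hxy']
    intro e
    exact hxy ((swap x x').injective ((swap_apply_left x x').trans e))
  · rw [e y (by simp), Perm.mul_apply, swap_apply_left]

theorem Tr.exists_not {k : ℕ} (h : Tr G k) (h' : ¬ Tr G (k + 1)) :
    ∃ F : Finset α, F.card = k ∧ ∃ x ∉ F, ∃ y ∉ F, ¬ R G F x y := by
  by_contra hh
  push Not at hh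
  refine h' fun T hT σ => ?_
  rcases hT.eq_or_lt with hT | hT
  swap
  · exact h T (by omega) σ
  obtain ⟨x, hx⟩ : T.Nonempty := card_pos.1 (by omega)
  have hc : (T.erase x).card = k := by rw [card_erase_of_mem hx]; omega
  obtain ⟨g, hg, e⟩ := h (T.erase x) hc.le σ
  obtain ⟨f, hf, e'⟩ := hh ((T.erase x).image σ) (by rw [card_image_of_injective _ σ.injective, hc])
    (g x) (by
      rw [mem_image]
      rintro ⟨z, hz, e'⟩
      exact (mem_erase.1 hz).1 (g.injective ((e z hz).trans e')))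
    (σ x) (by simp)
  refine ⟨f * g, mul_mem hf.1 hg, fun z hz => ?_⟩
  by_cases hzx : z = x
  · rw [hzx]; exact e'
  have hz' := mem_erase.2 ⟨hzx, hz⟩
  rw [Perm.mul_apply, e z hz', hf.2 _ (mem_image_of_mem _ hz')]

theorem Tr.jordan (hG : IsPreprimitive G α) {k p : ℕ} (h : Tr G k) (hp : p.Prime)
    (hpn : p + 3 ≤ Fintype.card α) (hk : Fintype.card α + 1 ≤ k + p) : alternatingGroup α ≤ G := by
  obtain ⟨P, -, hP⟩ := exists_subset_card_eq (s := (univ : Finset α)) (n := p)
    (by rw [card_univ]; omega)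
  obtain ⟨x, hx⟩ : P.Nonempty := card_pos.1 (hP ▸ hp.pos)
  have e : orb G Pᶜ x = P := by
    refine Subset.antisymm (by simpa using orb_sub (G := G) (S := Pᶜ) (x := x) (by simpa)) ?_
    intro y hy
    obtain ⟨g, hg, e⟩ := h (insert x Pᶜ) ((card_insert_le _ _).trans (by
      rw [card_compl, hP]; omega)) (swap x y)
    refine mem_orb.2 ⟨g, ⟨hg, fun z hz => ?_⟩, by rw [e x (by simp), swap_apply_left]⟩
    rw [e z (mem_insert_of_mem hz), swap_apply_of_ne_of_ne
      (ne_of_mem_of_not_mem hx (mem_compl.1 hz)).symm (ne_of_mem_of_not_mem hy (mem_compl.1 hz)).symm]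
  have hd : p ∣ Nat.card (St G Pᶜ) := by
    have := ord_eq (G := G) Pᶜ x
    rw [e, hP] at this
    exact ⟨_, this⟩
  haveI := Fact.mk hp
  obtain ⟨g, hg⟩ := exists_prime_orderOf_dvd_card' p hd
  have hg' : orderOf (g : Perm α) = p := by rw [Subgroup.orderOf_coe, hg]
  have hs : (g : Perm α).support.card ≤ p := hP ▸ card_le_card fun z hz => by
    by_contra hz'
    exact Perm.mem_support.1 hz (g.2.2 z (mem_compl.2 hz'))
  have hc : (g : Perm α).IsCycle := Perm.isCycle_of_prime_order (hg' ▸ hp) (by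
    have := hp.pos; omega)
  exact CF.Perm.alternatingGroup_le_of_prime_cycle G hG hp hpn hc (hc.orderOf.symm.trans hg') g.2.1

theorem sum_pp (y : ℕ) : 2 * ∑ p ∈ Nat.primesLE y, p ^ p.log y ≤ y * (y + 1) := by
  have inj : Set.InjOn (fun p : ℕ => p ^ p.log y) (Nat.primesLE y : Set ℕ) := fun p hp q hq e => by
    have hp' := Nat.prime_of_mem_primesLE hp
    have h0 : p.log y ≠ 0 := (Nat.log_pos hp'.one_lt (Nat.le_of_mem_primesLE hp)).ne'
    have : p ∣ q ^ q.log y := (show p ^ p.log y = q ^ q.log y from e) ▸ dvd_pow_self p h0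
    exact (Nat.prime_dvd_prime_iff_eq hp' (Nat.prime_of_mem_primesLE hq)).1 (hp'.dvd_of_dvd_pow this)
  rw [← sum_image (f := fun x => x) inj]
  have : ∑ x ∈ (Nat.primesLE y).image (fun p => p ^ p.log y), x ≤ ∑ x ∈ range (y + 1), x := by
    refine sum_le_sum_of_subset fun x hx => ?_
    obtain ⟨p, hp, rfl⟩ := mem_image.1 hx
    have := (Nat.prime_of_mem_primesLE hp).pos
    have := Nat.le_of_mem_primesLE hp
    exact mem_range.2 (Nat.lt_succ_of_le (Nat.pow_log_le_self p (by omega)))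
  have h2 := sum_range_id_mul_two (y + 1)
  rw [add_tsub_cancel_right] at h2
  nlinarith

theorem Tr.bs {k y : ℕ} (h : Tr G k) (hA : ¬ alternatingGroup α ≤ G) (hk : 3 ≤ k)
    (hkn : k ≤ Fintype.card α) (hy : y * (y + 1) ≤ 2 * k) :
    Nat.lcmUpto y ^ (2 * k - 2) ≤ Fintype.card α ^ Fintype.card α := by
  set I := Nat.primesLE y
  let q : ℕ → ℕ := fun p => p ^ p.log y
  have hI : ∀ p ∈ I, p.Prime ∧ p.log y ≠ 0 := fun p hp => ⟨Nat.prime_of_mem_primesLE hp,
    (Nat.log_pos (Nat.prime_of_mem_primesLE hp).one_lt (Nat.le_of_mem_primesLE hp)).ne'⟩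
  have hs : ∑ p ∈ I, q p ≤ k := by have := sum_pp y; simp only [q, I]; omega
  obtain ⟨σ, hσ⟩ := (Perm.exists_with_cycleType_iff α (m := I.val.map q)).2
    ⟨hs.trans hkn, fun a ha => by
      obtain ⟨p, hp, rfl⟩ := Multiset.mem_map.1 ha
      exact (hI p hp).1.two_le.trans (Nat.le_self_pow (hI p hp).2 p)⟩
  obtain ⟨g, hg, e⟩ := h σ.support (by rw [← Perm.sum_cycleType, hσ]; exact hs) σ
  have e' : ∀ j, ∀ x ∈ σ.support, (g ^ j) x = (σ ^ j) x := by
    intro j
    induction j with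
    | zero => simp
    | succ j ih =>
      intro x hx
      rw [pow_succ, pow_succ, Perm.mul_apply, Perm.mul_apply, e x hx,
        ih _ (Perm.apply_mem_support.2 hx)]
  have key : ∀ p ∈ I, 2 * k - 2 ≤ (univ.filter fun x : α => q p ∣ period g x).card := by
    intro p hp
    obtain ⟨hp', hl⟩ := hI p hp
    obtain ⟨c, τ, rfl, hd, hc, hcq⟩ := Perm.mem_cycleType_iff.1
      (show q p ∈ σ.cycleType from hσ ▸ Multiset.mem_map_of_mem q hp)
    obtain ⟨a, b, hb, hab⟩ := Nat.exists_eq_pow_mul_and_not_dvd (orderOf_pos g).ne' p hp'.ne_one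
    have hne : g ^ (p ^ (p.log y - 1) * b) ≠ 1 := by
      intro h1
      obtain ⟨x, hx, -⟩ := id hc
      have hτ : τ x = x := (hd x).resolve_left hx
      have h2 := e' (p ^ (p.log y - 1) * b) x (by simp [hτ, hx])
      rw [h1, hd.commute.mul_pow, Perm.mul_apply, Perm.pow_apply_eq_self_of_apply_eq_self hτ] at h2
      have h3 := orderOf_dvd_of_pow_eq_one ((hc.pow_eq_one_iff' hx).2 h2.symm)
      rw [hc.orderOf, hcq] at h3
      have h4 : p ^ p.log y ∣ p ^ (p.log y - 1) :=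
        (((Nat.Prime.coprime_iff_not_dvd hp').2 hb).pow_left _).dvd_of_dvd_mul_right h3
      have := (Nat.pow_dvd_pow_iff_le_right hp'.one_lt).1 h4
      omega
    have h5 : 2 * k - 2 ≤ (g ^ (p ^ (p.log y - 1) * b)).support.card := not_lt.1 fun h6 =>
      hA (Cfsg.Agent.S0711.result G hk hkn h.mult _ (pow_mem hg _) hne h6).2
    refine h5.trans (card_le_card fun x hx => ?_)
    by_contra h7
    simp only [mem_filter, mem_univ, true_and] at h7
    refine Perm.mem_support.1 hx ((pow_smul_eq_iff_period_dvd (m := g) (a := x)).2 ?_)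
    have h8 := period_dvd_orderOf g x
    rw [hab] at h8
    obtain ⟨d1, d2, h9, h10, h11⟩ := exists_dvd_and_dvd_of_dvd_mul h8
    obtain ⟨i, -, rfl⟩ := (Nat.dvd_prime_pow hp').1 h9
    rw [h11] at h7 ⊢
    refine mul_dvd_mul (pow_dvd_pow _ ?_) h10
    by_contra h12
    exact h7 (Dvd.dvd.mul_right (pow_dvd_pow _ (by omega)) _)
  rw [Nat.lcmUpto_eq_prod_pow_log, ← prod_pow]
  calc ∏ p ∈ I, q p ^ (2 * k - 2)
      ≤ ∏ p ∈ I, q p ^ (univ.filter fun x : α => q p ∣ period g x).card :=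
        prod_le_prod' fun p hp => Nat.pow_le_pow_right (pow_pos (hI p hp).1.pos _) (key p hp)
    _ = ∏ x, ∏ p ∈ I.filter (fun p => q p ∣ period g x), q p := by
        simp only [← prod_const, prod_filter]
        exact prod_comm
    _ ≤ ∏ _x : α, Fintype.card α := by
        refine prod_le_prod' fun x _ => le_trans (Nat.le_of_dvd
          (period_pos_of_orderOf_pos (orderOf_pos g) x) ?_) Function.minimalPeriod_le_card
        refine prod_dvd_of_isRelPrime (fun p hp p' hp' hne => ?_) fun p hp => (mem_filter.1 hp).2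
        exact Nat.coprime_iff_isRelPrime.1 (Nat.Coprime.pow _ _ ((Nat.coprime_primes
          (hI p (mem_filter.1 hp).1).1 (hI p' (mem_filter.1 hp').1).1).2 hne))
    _ = _ := by simp

theorem pw_ineq (j : ℕ) :
    (j + 19) * ((j + 20) * (j + 21) * ((j + 20) * (j + 21) + 2)) ≤ 4 * 2 ^ (j + 20) := by
  induction j with
  | zero => norm_num
  | succ j ih =>
    have : (j + 22) * ((j + 21) * (j + 22) + 2) ≤ 2 * ((j + 19) * ((j + 20) * (j + 21) + 2)) := by
      nlinarith [Nat.zero_le (j ^ 3), Nat.zero_le (j ^ 2)]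
    have := Nat.mul_le_mul_left ((j + 20) * (j + 21)) this
    rw [show j + 1 + 20 = (j + 20) + 1 by ring, pow_succ]
    nlinarith

theorem Tr.big {k j : ℕ} (h : Tr G k) (hA : ¬ alternatingGroup α ≤ G) (hkn : k ≤ Fintype.card α)
    (h1 : 2 ^ (j + 19) ≤ Fintype.card α) (h2 : Fintype.card α ≤ 2 ^ (j + 20)) :
    (j + 19) * (k - 2) ≤ Fintype.card α := by
  by_contra hc
  push Not at hc
  obtain ⟨y, hy⟩ : ∃ y, (j + 20) * (j + 21) = 2 * y := by
    obtain ⟨y, hy⟩ := Nat.even_mul_succ_self (j + 20)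
    exact ⟨y, by rw [two_mul, ← hy]⟩
  have h3 := pw_ineq j
  rw [hy, pow_succ] at h3
  have hk : 3 ≤ k := by
    by_contra hk
    rw [show k - 2 = 0 by omega] at hc
    omega
  have h4 : y * (y + 1) ≤ 2 * k := by
    have : (j + 19) * (y * (y + 1)) ≤ (j + 19) * (2 * (k - 2)) := by nlinarith
    have := Nat.le_of_mul_le_mul_left this (by omega)
    omega
  have h5 := h.bs hA hk hkn h4
  have h6 := Chebyshev.two_pow_le_mul_lcmUpto y
  have h7 : y + 1 ≤ 2 ^ (j + 20) := by nlinarith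
  obtain ⟨c, rfl⟩ : ∃ c, y = j + 20 + c := ⟨y - (j + 20), by
    have : j + 20 ≤ y := by nlinarith
    omega⟩
  have h8 : 2 ^ c ≤ Nat.lcmUpto (j + 20 + c) := by
    have := h6.trans (Nat.mul_le_mul_right _ h7)
    rw [pow_add] at this
    exact Nat.le_of_mul_le_mul_left this (by positivity)
  have h9 := (Nat.pow_le_pow_left h8 _).trans (h5.trans (Nat.pow_le_pow_left h2 _))
  rw [← pow_mul, ← pow_mul, Nat.pow_le_pow_iff_right one_lt_two] at h9
  obtain ⟨k, rfl⟩ := Nat.exists_eq_add_of_le' hk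
  rw [show 2 * (k + 3) - 2 = 2 * (k + 2) by omega] at h9
  rw [show k + 3 - 2 = k + 1 by omega] at hc
  have h10 : 2 * c = (j + 20) * (j + 19) := by nlinarith
  have : (j + 20) * ((j + 19) * (k + 2)) ≤ (j + 20) * Fintype.card α := by nlinarith
  have := Nat.le_of_mul_le_mul_left this (by omega)
  nlinarith

end CF.PrS
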