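import Cfsg.Agent.PrS.E

set_option autoImplicit false

namespace CF.PrS
open Finset Equiv MulAction

theorem half_pow {r : ℝ} {M s E : ℕ} (hM : 0 < M) (h0 : 0 ≤ r) (hr : r ≤ 1 - 1 / M)
    (hE : M * s ≤ E) : r ^ E ≤ 1 / 2 ^ s := by
  have hM' : (0 : ℝ) < M := by exact_mod_cast hM
  have h1 : r ≤ Real.exp (-(1 / M)) := hr.trans (by linarith [Real.add_one_le_exp (-(1 / M : ℝ))])
  have h2 : r ^ M ≤ 1 / 2 := by
    refine (pow_le_pow_left₀ h0 h1 M).trans ?_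
    rw [← Real.exp_nat_mul, mul_neg, mul_one_div_cancel hM'.ne']
    linarith [Real.exp_neg_one_lt_d9]
  have h3 : r ≤ 1 := hr.trans (by have : (0 : ℝ) < 1 / M := by positivity
                                  linarith)
  calc r ^ E ≤ r ^ (M * s) := pow_le_pow_of_le_one h0 h3 hE
    _ ≤ (1 / 2) ^ s := by rw [pow_mul]; exact pow_le_pow_left₀ (pow_nonneg h0 _) h2 s
    _ = _ := by rw [one_div_pow]

theorem prod_asym {L m : ℕ} {π : ℕ → ℝ} {β X : ℝ} (hm : 0 < m) (hX : (m : ℝ) ≤ X) (hβ : 1 ≤ β)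
    (h0 : ∀ i < L + 1, 0 ≤ π i) (h1 : π 0 ≤ 1)
    (h2 : ∀ i < L, ((m - 1 : ℕ) : ℝ) * π (i + 1) ≤ β - 1) :
    ∏ i ∈ range (L + 1), (1 + ((m - 1 : ℕ) : ℝ) * π i) ≤ X * β ^ (L + 1) := by
  rw [prod_range_succ', mul_comm]
  refine mul_le_mul ?_ ?_ (prod_nonneg fun i hi => ?_) ((Nat.cast_nonneg m).trans hX)
  · refine le_trans ?_ hX
    have := mul_le_mul_of_nonneg_left h1 (Nat.cast_nonneg (α := ℝ) (m - 1))
    rw [Nat.cast_sub hm] at this ⊢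
    push_cast at this ⊢
    linarith
  · refine le_trans ?_ (pow_le_pow_right₀ hβ (Nat.le_succ L))
    rw [← card_range L, ← prod_const, card_range]
    refine prod_le_prod (fun i hi => ?_) fun i hi => by linarith [h2 i (mem_range.1 hi)]
    have := h0 (i + 1) (by simpa using hi)
    positivity
  · have := h0 (i + 1) (by simpa using hi)
    positivity

theorem pw_ineq' (j : ℕ) : 19 * (j + 20) ^ 4 < 4 * 2 ^ (j + 20) := by
  refine lt_of_lt_of_le ?_ (pw_ineq j)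
  have : (j + 20) ^ 4 < (j + 20) * (j + 21) * ((j + 20) * (j + 21) + 2) := by
    nlinarith [Nat.zero_le (j ^ 3), Nat.zero_le (j ^ 2)]
  exact (Nat.mul_lt_mul_of_pos_left this (by norm_num)).trans_le
    (Nat.mul_le_mul_right _ (by omega))

theorem t_bd {L i : ℕ} (hi : i < L) : 0 ≤ (i : ℝ) / L ∧ (i : ℝ) / L ≤ 1 :=
  ⟨by positivity, div_le_one_of_le₀ (by exact_mod_cast hi.le) (Nat.cast_nonneg L)⟩

theorem t_ge (L i : ℕ) : (1 : ℝ) / L ≤ ((i + 1 : ℕ) : ℝ) / L := by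
  gcongr; exact_mod_cast Nat.le_add_left 1 i

theorem asymU {n j δ : ℕ} (h1 : 2 ^ (j + 19) ≤ n) (h2 : n ≤ 2 ^ (j + 20))
    (hδ : 2 * (n - 1) + 2 * δ ≤ 3 * δ ^ 2) :
    ∏ i ∈ range (j + 20), (1 + ((n - 1 : ℕ) : ℝ) * (1 - (i : ℝ) / (j + 20 : ℕ)) ^ (δ - 1)) ≤
      4 ^ (j + 20) := by
  have h3 := pw_ineq' j
  have h4 : 1 < 2 ^ (j + 19) := Nat.one_lt_two_pow (by omega)
  have h5 : (j + 20) * (j + 20) ≤ δ - 1 := by
    by_contra h5
    have h6 : δ ≤ (j + 20) ^ 2 := by rw [sq]; omega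
    have h7 := Nat.pow_le_pow_left h6 2
    rw [← pow_mul, show 2 * 2 = 4 from rfl] at h7
    rw [pow_succ 2] at h3
    rcases Nat.eq_zero_or_pos δ with rfl | h8
    · simp at hδ; omega
    · omega
  have h2' : (n : ℝ) ≤ 2 ^ (j + 20) := by exact_mod_cast h2
  refine (prod_asym (L := j + 19) (β := 2) (by omega) h2' one_le_two
    (fun i hi => pow_nonneg (sub_nonneg.2 (t_bd hi).2) _) (by simp) fun i hi => ?_).trans ?_
  · have h6 := half_pow (r := 1 - ((i + 1 : ℕ) : ℝ) / (j + 20 : ℕ)) (M := j + 20) (by omega)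
      (sub_nonneg.2 (t_bd (by omega)).2) (by linarith [t_ge (j + 20) i]) h5
    have h7 : ((n - 1 : ℕ) : ℝ) ≤ 2 ^ (j + 20) := le_trans (by exact_mod_cast Nat.sub_le n 1) h2'
    refine (mul_le_mul h7 h6 (pow_nonneg (sub_nonneg.2 (t_bd (by omega)).2) _)
      (by positivity)).trans ?_
    rw [mul_one_div_cancel (by positivity)]; norm_num
  · rw [← mul_pow]; norm_num

theorem adm_simple {t : ℝ} (h0 : 0 ≤ t) (h1 : t ≤ 1) : Adm t (1 - t ^ 2 / 2) 1 := by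
  have h2 : 0 < 1 - t ^ 2 / 2 := by nlinarith
  refine ⟨h2, by nlinarith, ?_⟩
  rw [pow_one, ← mul_div_assoc, ← add_div, div_le_one (by positivity)]
  nlinarith [sq_nonneg (t ^ 2)]

theorem asymM {m j E : ℕ} (h1 : 2 ^ (j + 19) ≤ 2 * m) (h2 : m ≤ 2 ^ (j + 20))
    (hE : (m - 1) / 2 ≤ E) :
    ∏ i ∈ range (2 * j + 40), (1 + ((m - 1 : ℕ) : ℝ) * ((1 - (i : ℝ) / (2 * j + 40 : ℕ)) *
      (1 - ((i : ℝ) / (2 * j + 40 : ℕ)) ^ 2 / 2) ^ E)) ≤ 2 ^ (2 * j + 40) := by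
  have h3 := pw_ineq' j
  have h4 : 1 < 2 ^ (j + 19) := Nat.one_lt_two_pow (by omega)
  have h5 : 8 * (j + 20) ^ 2 * (j + 22) ≤ E := by
    have : 256 * ((j + 20) ^ 2 * (j + 22)) ≤ 19 * (j + 20) ^ 4 := by
      have : 256 * (j + 22) ≤ 19 * (j + 20) ^ 2 := by nlinarith
      nlinarith [Nat.mul_le_mul_left ((j + 20) ^ 2) this]
    rw [pow_succ 2] at h3
    rw [mul_assoc]
    omega
  have h2' : (m : ℝ) ≤ 2 ^ (j + 20) := by exact_mod_cast h2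
  have hr : ∀ i : ℕ, i < 2 * j + 40 → 0 ≤ 1 - ((i : ℝ) / (2 * j + 40 : ℕ)) ^ 2 / 2 := fun i hi =>
    (adm_simple (t_bd hi).1 (t_bd hi).2).1.le
  refine (prod_asym (L := 2 * j + 39) (β := 5 / 4) (by omega) h2' (by norm_num)
    (fun i hi => mul_nonneg (sub_nonneg.2 (t_bd hi).2) (pow_nonneg (hr i hi) _)) (by simp)
    fun i hi => ?_).trans ?_
  · have hM : 0 < 8 * (j + 20) ^ 2 := Nat.mul_pos (by norm_num) (Nat.pow_pos (by omega))
    have hi' : i + 1 < 2 * j + 40 := by omega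
    have g7 := pow_le_pow_left₀ (one_div_nonneg.2 (Nat.cast_nonneg _)) (t_ge (2 * j + 40) i) 2
    have g8 : (1 : ℝ) / ((8 * (j + 20) ^ 2 : ℕ) : ℝ) = (1 / ((2 * j + 40 : ℕ) : ℝ)) ^ 2 / 2 := by
      push_cast; field_simp; ring
    have g9 : 1 - (((i + 1 : ℕ) : ℝ) / (2 * j + 40 : ℕ)) ^ 2 / 2 ≤
        1 - 1 / ((8 * (j + 20) ^ 2 : ℕ) : ℝ) := by rw [g8]; linarith
    have h6 := half_pow (s := j + 22) hM (hr (i + 1) hi') g9 h5
    have h7 : ((m - 1 : ℕ) : ℝ) ≤ 2 ^ (j + 20) := le_trans (by exact_mod_cast Nat.sub_le m 1) h2'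
    have h8 := t_bd hi'
    have h9 := mul_le_mul (show 1 - ((i + 1 : ℕ) : ℝ) / (2 * j + 40 : ℕ) ≤ 1 by linarith [h8.1]) h6
      (pow_nonneg (hr (i + 1) hi') _) zero_le_one
    refine (mul_le_mul h7 h9 (mul_nonneg (sub_nonneg.2 h8.2) (pow_nonneg (hr (i + 1) hi') _))
      (by positivity)).trans ?_
    rw [show j + 22 = j + 20 + 2 by ring, pow_add (2 : ℝ) (j + 20) 2]
    generalize hx : (2 : ℝ) ^ (j + 20) = x
    have : 0 < x := hx ▸ pow_pos two_pos _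
    field_simp
    norm_num
  · rw [show 2 * j + 39 + 1 = 2 * (j + 20) by ring, pow_mul, pow_mul, ← mul_pow]
    gcongr; norm_num

end CF.PrS
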