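import Cfsg.Agent.PrS.A

set_option autoImplicit false

namespace CF.PrS
open Finset

/-- fixed point scale -/
def sc : ℕ := 1099511627776

/-- force evaluation -/
def frc (n : ℕ) (k : ℕ → ℕ) : ℕ :=
  match n with
  | 0 => k 0
  | m + 1 => k (m + 1)

theorem frc_eq (n : ℕ) (k : ℕ → ℕ) : frc n k = k n := by cases n <;> rfl

/-- fixed point power, rounded up -/
def pw (x : ℕ) : ℕ → ℕ → ℕ
  | 0, _ => sc
  | f + 1, e => if e = 0 then sc else frc (e / 2) fun h => frc (pw x f h) fun y =>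
      frc (y * y / sc + 1) fun z => if e % 2 = 0 then z else z * x / sc + 1

theorem sc_pos : (0 : ℝ) < sc := by unfold sc; norm_num

theorem div_up (x d : ℕ) (hd : 0 < d) : (x : ℝ) / d ≤ (x / d + 1 : ℕ) := by
  rw [div_le_iff₀ (by exact_mod_cast hd)]
  exact_mod_cast (Nat.lt_div_mul_add hd).le.trans (by rw [Nat.add_mul, one_mul])

theorem mul_up {a b : ℝ} {x y : ℕ} (ha : 0 ≤ a) (hb : 0 ≤ b) (hx : a * sc ≤ x) (hy : b * sc ≤ y) :
    a * b * sc ≤ (x * y / sc + 1 : ℕ) := by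
  refine le_trans ?_ (div_up (x * y) sc (by unfold sc; norm_num))
  rw [le_div_iff₀ sc_pos, Nat.cast_mul]
  have := mul_le_mul hx hy (mul_nonneg hb sc_pos.le) (Nat.cast_nonneg x)
  linarith

theorem pw_sound {r : ℝ} {x : ℕ} (h0 : 0 ≤ r) (h1 : r ≤ 1) (hx : r * sc ≤ x) :
    ∀ f e, r ^ e * sc ≤ pw x f e
  | 0, e => mul_le_of_le_one_left sc_pos.le (pow_le_one₀ h0 h1)
  | f + 1, e => by
    unfold pw
    simp only [frc_eq]
    have ih := pw_sound h0 h1 hx f (e / 2)
    have h2 := mul_up (pow_nonneg h0 _) (pow_nonneg h0 _) ih ih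
    rw [← pow_add] at h2
    split_ifs with h3 h4
    · exact mul_le_of_le_one_left sc_pos.le (pow_le_one₀ h0 h1)
    · rwa [show e / 2 + e / 2 = e by omega] at h2
    · have := mul_up (pow_nonneg h0 _) h0 h2 hx
      rwa [← pow_succ, show e / 2 + e / 2 + 1 = e by omega] at this

/-- upper bound for the product -/
def bp (b E : ℕ) (row : ℕ → ℕ) : ℕ :=
  ∏ i ∈ range 128, (sc + (b - 1) * ((128 - i) * pw (row i) 24 E / 128 + 1))

theorem bp_sound {b E m E' : ℕ} {row : ℕ → ℕ} (hb : m ≤ b) (hE : E ≤ E') (r : ℕ → ℝ)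
    (hr : ∀ i < 128, 0 ≤ r i ∧ r i ≤ 1 ∧ r i * sc ≤ row i) :
    (∏ i ∈ range 128, (1 + ((m - 1 : ℕ) : ℝ) * ((1 - (i : ℝ) / (128 : ℕ)) * r i ^ E'))) * sc ^ 128 ≤
      bp b E row := by
  unfold bp
  rw [Nat.cast_prod, ← card_range 128, ← prod_const, card_range, ← prod_mul_distrib]
  have ht : ∀ i : ℕ, i < 128 → 0 ≤ 1 - (i : ℝ) / (128 : ℕ) := fun i hi => by
    rw [sub_nonneg, div_le_one (by norm_num)]; exact_mod_cast hi.le
  refine prod_le_prod (fun i hi => ?_) fun i hi => ?_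
  · have := ht i (mem_range.1 hi)
    have := (hr i (mem_range.1 hi)).1
    have := sc_pos
    positivity
  rw [mem_range] at hi
  obtain ⟨h0, h1, h2⟩ := hr i hi
  have h3 := pw_sound h0 h1 h2 24 E
  have h4 := div_up ((128 - i) * pw (row i) 24 E) 128 (by norm_num)
  have h5 : r i ^ E' ≤ r i ^ E := pow_le_pow_of_le_one h0 h1 hE
  have h6 : ((m - 1 : ℕ) : ℝ) ≤ (b - 1 : ℕ) := by exact_mod_cast Nat.sub_le_sub_right hb 1
  have h7 : (1 - (i : ℝ) / (128 : ℕ)) * r i ^ E' * sc ≤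
      (((128 - i) * pw (row i) 24 E / 128 + 1 : ℕ) : ℝ) := by
    refine le_trans ?_ h4
    rw [Nat.cast_mul, Nat.cast_sub hi.le, mul_div_right_comm, sub_div, div_self (by norm_num),
      mul_assoc]
    exact mul_le_mul_of_nonneg_left ((mul_le_mul_of_nonneg_right h5 sc_pos.le).trans h3) (ht i hi)
  rw [Nat.cast_add, Nat.cast_mul, add_mul, one_mul, mul_assoc]
  exact add_le_add_right (mul_le_mul h6 h7 (mul_nonneg (mul_nonneg (ht i hi) (pow_nonneg h0 _))
    sc_pos.le) (Nat.cast_nonneg _)) _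

/-- check of admissibility -/
def okr (D i r : ℕ) : Bool :=
  decide (0 < r) && decide (r ≤ sc) && decide (128 * ((128 - i) * (sc * sc)) * (128 * (r * r)) ^ D +
    i * ((128 - i) * (sc * sc)) ^ D * (128 * (r * r)) ≤ 128 * (128 * (r * r)) ^ (D + 1))

theorem okr_sound {D i r : ℕ} (hi : i < 128) (h : okr D i r = true) :
    Adm ((i : ℝ) / (128 : ℕ)) (r / sc) D := by
  simp only [okr, Bool.and_eq_true, decide_eq_true_eq] at h
  obtain ⟨⟨h0, h1⟩, h2⟩ := h
  have h0' : (0 : ℝ) < r := by exact_mod_cast h0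
  have hs := sc_pos
  refine ⟨by positivity, by rw [div_le_one hs]; exact_mod_cast h1, ?_⟩
  have e : (1 - (i : ℝ) / (128 : ℕ)) / ((r : ℝ) / sc) ^ 2 =
      (((128 - i) * (sc * sc) : ℕ) : ℝ) / ((128 * (r * r) : ℕ) : ℝ) := by
    push_cast [Nat.cast_sub hi.le]
    field_simp
  rw [e]
  have hB : (0 : ℝ) < ((128 * (r * r) : ℕ) : ℝ) := by positivity
  have h3 : (128 : ℝ) * (((128 - i) * (sc * sc) : ℕ) : ℝ) * ((128 * (r * r) : ℕ) : ℝ) ^ D +
      i * (((128 - i) * (sc * sc) : ℕ) : ℝ) ^ D * ((128 * (r * r) : ℕ) : ℝ) ≤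
      128 * ((128 * (r * r) : ℕ) : ℝ) ^ (D + 1) := by exact_mod_cast h2
  generalize (((128 - i) * (sc * sc) : ℕ) : ℝ) = A at *
  generalize ((128 * (r * r) : ℕ) : ℝ) = B at *
  rw [div_pow, div_mul_div_comm, div_add_div _ _ hB.ne' (by positivity), div_le_one (by positivity)]
  push_cast
  rw [pow_succ] at h3
  linarith

/-- the product bound available for a graph with parameters `Δ, E` -/
def Good (m : ℕ) (u : ℝ) (Δ E : ℕ) : Prop :=
  ∃ r : ℕ → ℝ, (∀ i : ℕ, i < 128 → Adm ((i : ℝ) / (128 : ℕ)) (r i) Δ) ∧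
    ∏ i ∈ range 128, (1 + ((m - 1 : ℕ) : ℝ) * ((1 - (i : ℝ) / (128 : ℕ)) * r i ^ E)) ≤ u ^ 128

/-- check of one block -/
def blk (b c D E : ℕ) (row : List ℕ) : Bool :=
  (List.range 128).all (fun i => okr D i (row.getD i 0 * 1048576)) &&
    decide (bp b E (fun i => row.getD i 0 * 1048576) * 1024 ^ 128 ≤ (sc * c) ^ 128)

theorem blk_sound {b c D E m D' E' : ℕ} {row : List ℕ} (h : blk b c D E row = true) (hb : m ≤ b)
    (hD : D ≤ D') (hE : E ≤ E') : Good m (c / 1024) D' E' := by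
  simp only [blk, Bool.and_eq_true, List.all_eq_true, List.mem_range, decide_eq_true_eq] at h
  have ha := fun i hi => okr_sound hi (h.1 i hi)
  refine ⟨_, fun i hi => (ha i hi).mono (by positivity) (by
    rw [div_le_one (by norm_num)]; exact_mod_cast hi.le) hD, ?_⟩
  have h1 := bp_sound (row := fun i => row.getD i 0 * 1048576) hb hE _ fun i hi =>
    ⟨(ha i hi).1.le, (ha i hi).2.1, (div_mul_cancel₀ _ sc_pos.ne').le⟩
  have h2 : (bp b E (fun i => row.getD i 0 * 1048576) : ℝ) * 1024 ^ 128 ≤ (sc * c) ^ 128 := by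
    exact_mod_cast h.2
  rw [div_pow, le_div_iff₀ (by positivity)]
  refine le_of_mul_le_mul_left ?_ (pow_pos sc_pos 128)
  rw [← mul_pow, ← mul_assoc, mul_comm ((sc : ℝ) ^ 128)]
  exact (mul_le_mul_of_nonneg_right h1 (by positivity)).trans h2

/-- check of all blocks -/
def blks (a b c : ℕ) (last : ℕ × List ℕ) : ℕ → List (ℕ × ℕ × List ℕ) → Bool
  | l1, [] => decide (last.1 ≤ 2 * l1) && decide (last.1 + 3 ≤ a) &&
      blk b c last.1 ((a - 1) / 2) last.2
  | l1, x :: rest => decide (x.2.1 ≤ 2 * l1) && blk b c x.2.1 (a - 2 - x.1) x.2.2 &&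
      blks a b c last (x.1 + 1) rest

theorem blks_sound {a b c m : ℕ} {last : ℕ × List ℕ} (ha : a ≤ m) (hb : m ≤ b) :
    ∀ (bl : List (ℕ × ℕ × List ℕ)) (l1 : ℕ), blks a b c last l1 bl = true →
      (∀ l, l1 ≤ l → 2 * l < m - 2 → Good m (c / 1024) (2 * l) (m - 2 - l)) ∧
      Good m (c / 1024) (m - 3) ((m - 1) / 2)
  | [], l1, h => by
    simp only [blks, Bool.and_eq_true, decide_eq_true_eq] at h
    exact ⟨fun l h1 h2 => blk_sound h.2 hb (by omega) (by omega),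
      blk_sound h.2 hb (by omega) (by omega)⟩
  | x :: rest, l1, h => by
    simp only [blks, Bool.and_eq_true, decide_eq_true_eq] at h
    have ih := blks_sound ha hb rest _ h.2
    refine ⟨fun l h1 h2 => ?_, ih.2⟩
    by_cases h3 : l ≤ x.1
    · exact blk_sound h.1.2 hb (by omega) (by omega)
    · exact ih.1 l (by omega) h2

/-- primality by trial division -/
def isP (p : ℕ) : Bool :=
  decide (2 ≤ p) && decide (p < 640000) &&
    (List.range 800).all fun d => decide (d < 2) || decide (p < d * d) || decide (p % d ≠ 0)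

theorem isP_sound {p : ℕ} (h : isP p = true) : p.Prime := by
  simp only [isP, Bool.and_eq_true, List.all_eq_true, List.mem_range, decide_eq_true_eq,
    Bool.or_eq_true] at h
  rw [Nat.prime_def_le_sqrt]
  refine ⟨h.1.1, fun d h1 h2 h3 => ?_⟩
  rw [Nat.le_sqrt] at h2
  rcases h.2 d (by nlinarith [h.1.2]) with (h4 | h4) | h4
  · omega
  · omega
  · exact h4 (Nat.mod_eq_zero_of_dvd h3)

/-- upper bound of `N! / a!` -/
def dn (a N : ℕ) : ℕ := if N ≤ 2000 then N.descFactorial (N - a) else N ^ (N - a)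

theorem dn_ge (a N : ℕ) : N.descFactorial (N - a) ≤ dn a N := by
  unfold dn; split_ifs
  exacts [le_rfl, Nat.descFactorial_le_pow _ _]

theorem desc_m {u : ℝ} {a n : ℕ} (h0 : 0 ≤ u) (hu : u ≤ a + 1) : ∀ m, a ≤ m → m ≤ n →
    (n.descFactorial (n - m) : ℝ) * u ^ m ≤ n.descFactorial (n - a) * u ^ a := by
  intro m hm
  induction m, hm using Nat.le_induction with
  | base => exact fun _ => le_rfl
  | succ m hm ih =>
    intro hn
    refine le_trans ?_ (ih (by omega))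
    rw [show n - m = n - (m + 1) + 1 by omega, Nat.descFactorial_succ,
      show n - (n - (m + 1)) = m + 1 by omega, pow_succ]
    have : u ≤ m + 1 := hu.trans (by exact_mod_cast Nat.succ_le_succ hm)
    push_cast
    nlinarith [mul_le_mul_of_nonneg_left this
      (mul_nonneg (Nat.cast_nonneg (n.descFactorial (n - (m + 1)))) (pow_nonneg h0 m))]

theorem desc_n {a n : ℕ} (h3 : 3 ≤ a) (hn : a ≤ n) : ∀ N, n ≤ N →
    n.descFactorial (n - a) * 4 ^ N ≤ N.descFactorial (N - a) * 4 ^ n := by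
  intro N hN
  induction N, hN using Nat.le_induction with
  | base => exact le_rfl
  | succ N hN ih =>
    rw [show N + 1 - a = N - a + 1 by omega, Nat.succ_descFactorial_succ, pow_succ, ← mul_assoc,
      mul_assoc (N + 1), mul_comm (N + 1)]
    exact Nat.mul_le_mul ih (by omega)

theorem desc_fin {a m n N : ℕ} {u X : ℝ} (h3 : 3 ≤ a) (h0 : 0 ≤ u) (hu : u ≤ a + 1) (hX : 0 ≤ X)
    (hm : a ≤ m) (hn : m ≤ n) (hN : n ≤ N) (h : (dn a N : ℝ) * (u ^ a * X) ≤ 4 ^ N) :
    (n.descFactorial (n - m) : ℝ) * (u ^ m * X) ≤ 4 ^ n := by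
  have h1 := desc_m h0 hu m hm hn
  have h2 : (n.descFactorial (n - a) : ℝ) * 4 ^ N ≤ dn a N * 4 ^ n := by
    exact_mod_cast (desc_n h3 (hm.trans hn) N hN).trans (Nat.mul_le_mul_right _ (dn_ge a N))
  refine le_of_mul_le_mul_right ?_ (pow_pos (by norm_num : (0 : ℝ) < 4) N)
  have h4 : 0 ≤ u ^ a * X := by positivity
  calc _ = (n.descFactorial (n - m) : ℝ) * u ^ m * (X * 4 ^ N) := by ring
    _ ≤ (n.descFactorial (n - a) : ℝ) * u ^ a * (X * 4 ^ N) := by gcongr
    _ = (n.descFactorial (n - a) : ℝ) * 4 ^ N * (u ^ a * X) := by ring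
    _ ≤ dn a N * 4 ^ n * (u ^ a * X) := by gcongr
    _ = dn a N * (u ^ a * X) * 4 ^ n := by ring
    _ ≤ 4 ^ N * 4 ^ n := by gcongr
    _ = _ := by ring

/-- the numerical facts in the multiply transitive case -/
def FinM (m : ℕ) : Prop :=
  ∃ (p j : ℕ) (u : ℝ), p.Prime ∧ m ≤ p + 1 ∧ 0 ≤ u ∧
    (∀ l, 2 ≤ l → 2 * l < m - 2 → Good m u (2 * l) (m - 2 - l)) ∧ Good m u (m - 3) ((m - 1) / 2) ∧
    m < 2 ^ j ∧ ∀ n, m ≤ n → n ≤ p + 2 → (n.descFactorial (n - m) : ℝ) * u ^ m ≤ 4 ^ n ∧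
      (n.descFactorial (n - m) : ℝ) * m ^ j ≤ 4 ^ n

/-- a range: upper end, prime, rate, exponent, blocks -/
structure Rg where
  /-- upper end -/
  b : ℕ
  /-- prime -/
  p : ℕ
  /-- rate -/
  c : ℕ
  /-- exponent -/
  j : ℕ
  /-- blocks -/
  bl : (ℕ × List ℕ) × List (ℕ × ℕ × List ℕ)

/-- check of a range -/
def chkM (a : ℕ) (x : Rg) : Bool :=
  isP x.p && decide (x.b ≤ x.p + 1) && decide (3 ≤ a) && decide (x.c ≤ 1024 * (a + 1)) &&
    blks a x.b x.c x.bl.1 2 x.bl.2 && decide (x.b < 2 ^ x.j) &&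
    decide (dn a (x.p + 2) * x.c ^ a ≤ 4 ^ (x.p + 2) * 1024 ^ a) &&
    decide (dn a (x.p + 2) * x.b ^ x.j ≤ 4 ^ (x.p + 2))

theorem chkM_sound {a m : ℕ} {x : Rg} (h : chkM a x = true) (ha : a ≤ m) (hb : m ≤ x.b) :
    FinM m := by
  simp only [chkM, Bool.and_eq_true, decide_eq_true_eq] at h
  obtain ⟨⟨⟨⟨⟨⟨⟨h1, h2⟩, h3⟩, h4⟩, h5⟩, h6⟩, h7⟩, h8⟩ := h
  have h9 := blks_sound ha hb _ _ h5
  refine ⟨x.p, x.j, x.c / 1024, isP_sound h1, by omega, by positivity, h9.1, h9.2, by omega,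
    fun n hn hN => ⟨?_, ?_⟩⟩
  · have := desc_fin (u := x.c / 1024) (X := 1) h3 (by positivity) (by
      rw [div_le_iff₀ (by norm_num), mul_comm]; exact_mod_cast h4) zero_le_one ha hn hN (by
      rw [mul_one, div_pow, ← mul_div_assoc, div_le_iff₀ (by positivity)]; exact_mod_cast h7)
    rwa [mul_one] at this
  · have := desc_fin (u := 1) (X := x.b ^ x.j) h3 zero_le_one (by
      linarith [Nat.cast_nonneg (α := ℝ) a]) (by positivity) ha hn hN (by
      rw [one_pow, one_mul]; exact_mod_cast h8)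
    rw [one_pow, one_mul] at this
    refine le_trans ?_ this
    gcongr

/-- check of a list of ranges -/
def covM : ℕ → List Rg → ℕ → Bool
  | a, [], e => decide (e < a)
  | a, x :: l, e => chkM a x && covM (x.b + 1) l e

theorem covM_sound {e m : ℕ} (he : m ≤ e) : ∀ (l : List Rg) (a : ℕ), covM a l e = true → a ≤ m →
    FinM m
  | [], a, h, ha => by simp only [covM, decide_eq_true_eq] at h; omega
  | x :: l, a, h, ha => by
    simp only [covM, Bool.and_eq_true] at h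
    by_cases hb : m ≤ x.b
    exacts [chkM_sound h.1 ha hb, covM_sound he l _ h.2 (by omega)]

/-- the numerical fact in the uniprimitive case -/
def FinU (n : ℕ) : Prop := ∀ δ : ℕ, 2 * (n - 1) + 2 * δ ≤ 3 * δ ^ 2 →
  ∏ i ∈ range 128, (1 + ((n - 1 : ℕ) : ℝ) * (1 - (i : ℝ) / (128 : ℕ)) ^ (δ - 1)) ≤ 4 ^ 128

/-- check of a list of ranges -/
def covU : ℕ → List (ℕ × ℕ) → ℕ → Bool
  | a, [], e => decide (e < a)
  | a, x :: l, e => decide (3 * (x.2 + 1) ^ 2 < 2 * (a - 1) + 2 * (x.2 + 1)) &&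
      decide (bp x.1 x.2 (fun i => (128 - i) * 8589934592) ≤ (4 * sc) ^ 128) && covU (x.1 + 1) l e

theorem covU_sound {e n : ℕ} (he : n ≤ e) : ∀ (l : List (ℕ × ℕ)) (a : ℕ), covU a l e = true →
    a ≤ n → FinU n
  | [], a, h, ha => by simp only [covU, decide_eq_true_eq] at h; omega
  | x :: l, a, h, ha => by
    simp only [covU, Bool.and_eq_true, decide_eq_true_eq] at h
    by_cases hb : n ≤ x.1
    swap
    · exact covU_sound he l _ h.2 (by omega)
    intro δ hδ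
    have h1 : x.2 + 2 ≤ δ := by
      by_contra h1
      obtain ⟨d, hd⟩ := Nat.exists_eq_add_of_le (show δ ≤ x.2 + 1 by omega)
      have h2 := h.1.1
      rw [hd] at h2
      have : a - 1 ≤ n - 1 := by omega
      nlinarith [Nat.le_self_pow two_ne_zero d, Nat.zero_le (δ * d)]
    obtain ⟨d, rfl⟩ : ∃ d, δ = d + 2 := ⟨δ - 2, by omega⟩
    have h2 := bp_sound (row := fun i => (128 - i) * 8589934592) hb (show x.2 ≤ d by omega)
      (fun i => 1 - (i : ℝ) / (128 : ℕ)) fun i hi => ⟨by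
        rw [sub_nonneg, div_le_one (by norm_num)]; exact_mod_cast hi.le, by
        have : (0 : ℝ) ≤ (i : ℝ) / (128 : ℕ) := by positivity
        linarith, by
        push_cast [Nat.cast_sub hi.le, sc]
        linarith⟩
    have h3 : (bp x.1 x.2 (fun i => (128 - i) * 8589934592) : ℝ) ≤ (4 * sc) ^ 128 := by
      exact_mod_cast h.1.2
    rw [mul_pow] at h3
    simp only [← pow_succ'] at h2
    exact le_of_mul_le_mul_right (h2.trans h3) (pow_pos sc_pos 128)

end CF.PrS
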